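import Cfsg.Agent.Iso44.Ord
import Cfsg.Agent.H43.InvolSp

/-!
Counting the classes in a linear group with given realization properties.
-/

set_option autoImplicit false

universe u

namespace Cfsg.Agent.Iso44

open Polynomial Module

theorem card_classes_congr {G H : Type*} [Group G] [Group H] (e : G ≃* H) (r : ℕ) :
    Nat.card {C : ConjClasses G // ∃ g : G, ConjClasses.mk g = C ∧ orderOf g = r} =
      Nat.card {C : ConjClasses H // ∃ g : H, ConjClasses.mk g = C ∧ orderOf g = r} := by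
  have hinj : Function.Injective (ConjClasses.map e.toMonoidHom) := by
    intro a b h
    obtain ⟨a, rfl⟩ := ConjClasses.mk_surjective a
    obtain ⟨b, rfl⟩ := ConjClasses.mk_surjective b
    have h2 : IsConj (e a) (e b) := ConjClasses.mk_eq_mk_iff_isConj.1 h
    apply ConjClasses.mk_eq_mk_iff_isConj.2
    rw [isConj_iff] at h2 ⊢
    obtain ⟨c, hc⟩ := h2
    refine ⟨e.symm c, ?_⟩
    apply e.injective
    rw [map_mul, map_mul, map_inv, e.apply_symm_apply, hc]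
  refine Nat.card_congr (Equiv.ofBijective (fun C => ⟨ConjClasses.map e.toMonoidHom C.1, ?_⟩) ⟨?_, ?_⟩)
  · obtain ⟨g, hg, ho⟩ := C.2
    refine ⟨e g, ?_, ?_⟩
    · rw [← hg]; rfl
    · rw [← ho]; exact e.orderOf_eq g
  · intro C D h
    exact Subtype.ext (hinj (congrArg Subtype.val h))
  · rintro ⟨_, g, rfl, ho⟩
    refine ⟨⟨ConjClasses.mk (e.symm g), e.symm g, rfl, ?_⟩, ?_⟩
    · rw [← ho]; exact e.symm.orderOf_eq g
    · apply Subtype.ext
      show ConjClasses.mk (e (e.symm g)) = _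
      rw [e.apply_symm_apply]

variable {r : ℕ} [hr : Fact r.Prime] {E : Type*} [Field E] {F : Type*} [Field F] [Algebra F E]
variable {V : Type u} [AddCommGroup V] [Module F V] [FiniteDimensional F V]

theorem coe_pow_equiv (g : V ≃ₗ[F] V) (k : ℕ) : ((g ^ k : V ≃ₗ[F] V) : End F V) = (g : End F V) ^ k := by
  induction k with
  | zero => rfl
  | succ k ih => rw [pow_succ, pow_succ, ← ih]; rfl

theorem coe_pow_one {g : V ≃ₗ[F] V} {k : ℕ} (h : g ^ k = 1) : (g : End F V) ^ k = 1 := by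
  rw [← coe_pow_equiv, h]; rfl

theorem count_G {ζ : E} (hζ : IsPrimitiveRoot ζ r) [IsAlgClosed E] (H : Subgroup (ZMod r)ˣ) (G : Subgroup (V ≃ₗ[F] V)) (P : Prop) [Decidable P]
    (hsep : ∀ g ∈ G, ∀ g' ∈ G, g ^ r = 1 → g' ^ r = 1 → ∀ p : V ≃ₗ[F] V, (∀ x, p (g x) = g' (p x)) →
      ∃ h ∈ G, ∀ x, h (g x) = g' (h x))
    (hinv : ∀ g ∈ G, g ^ r = 1 → Inv H (mult ζ (g : End F V)))
    (hobs : ∀ g ∈ G, g ^ r = 1 → mult ζ (g : End F V) (0 : ZMod r) = 0 → P)
    (hreal : ∀ (x : ℕ) (a : (ZMod r)ˣ ⧸ H → ℕ), x + Nat.card H * ∑ c, a c = finrank F V → (x = 0 → P) →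
      ∃ g ∈ G, g ^ r = 1 ∧ (mult ζ (g : End F V) : ZMod r → ℕ) = T H x a)
    (hn : P ∨ 0 < finrank F V) :
    Nat.card {C : ConjClasses ↥G // ∃ g : ↥G, ConjClasses.mk g = C ∧ orderOf g = r} =
      (finrank F V / Nat.card H + Fintype.card ((ZMod r)ˣ ⧸ H)).choose (Fintype.card ((ZMod r)ˣ ⧸ H)) - 1 -
        (if Nat.card H ∣ finrank F V ∧ ¬ P then
          (finrank F V / Nat.card H + Fintype.card ((ZMod r)ˣ ⧸ H) - 1).choose (Fintype.card ((ZMod r)ˣ ⧸ H) - 1) else 0) := by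
  have hpow : ∀ g : ↥G, g ^ r = 1 → (g : V ≃ₗ[F] V) ^ r = 1 := by
    intro g hg
    have := congrArg Subtype.val hg
    exact this
  rw [count_classes H (fun g : ↥G => mult ζ ((g : V ≃ₗ[F] V) : End F V)) (finrank F V) P]
  · congr 1
    split_ifs <;> rfl
  · intro g h hgh
    rw [isConj_iff] at hgh
    obtain ⟨c, hc⟩ := hgh
    have h1 : ((h : V ≃ₗ[F] V) : End F V) = (c : V ≃ₗ[F] V).conj ((g : V ≃ₗ[F] V) : End F V) := by
      rw [← hc]
      ext x
      rfl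
    simp only [h1, mult_conj]
  · intro g h hg hh hgh
    obtain ⟨p, hp⟩ := exists_P hζ (g : V ≃ₗ[F] V) (h : V ≃ₗ[F] V) (hpow g hg) (hpow h hh) hgh
    obtain ⟨k, hk, hk2⟩ := hsep g g.2 h h.2 (hpow g hg) (hpow h hh) p hp
    rw [isConj_iff]
    refine ⟨⟨k, hk⟩, ?_⟩
    rw [mul_inv_eq_iff_eq_mul]
    apply Subtype.ext
    apply LinearEquiv.ext
    exact hk2
  · intro g hg
    exact hinv g g.2 (hpow g hg)
  · intro g hg
    exact sum_mult hζ _ (coe_pow_one (hpow g hg))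
  · exact mult_one_zero hζ
  · intro g hg h0
    exact hobs g g.2 (hpow g hg) h0
  · intro x a hxa hx
    obtain ⟨g, hg, hgr, hm⟩ := hreal x a hxa hx
    exact ⟨⟨g, hg⟩, Subtype.ext hgr, hm⟩
  · exact hn

end Cfsg.Agent.Iso44
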