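import Cfsg.Agent.Iso44.Fit
import Cfsg.Agent.Orth.Witt
import Cfsg.Agent.Witt.Basic

/-!
Isometries of odd order prime to the characteristic which are conjugate in `GL(V)` are conjugate in the isometry group.
-/

set_option autoImplicit false

namespace Cfsg.Agent.Iso44

open Module

variable {F V : Type*} [Field F] [Finite F] [AddCommGroup V] [Module F V] [FiniteDimensional F V]
  {N : ℕ} (hN : (N : F) ≠ 0) (hodd : Odd N)

omit [Finite F] [FiniteDimensional F V] in
theorem map_cm {g g' P : V ≃ₗ[F] V} (hP : ∀ x, P (g x) = g' (P x)) {x : V} (hx : x ∈ cm g) : P x ∈ cm g' := by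
  obtain ⟨y, rfl⟩ := mem_cm.1 hx
  exact mem_cm.2 ⟨P y, by rw [map_sub, hP]⟩

include hN in
omit [Finite F] in
/-- completing an isometry -/
theorem finish {B : LinearMap.BilinForm F V} (hB : ∀ x, (∀ y, B x y = 0) → x = 0) {g g' P h : V ≃ₗ[F] V}
    (hg : ∀ x y, B (g x) (g y) = B x y) (hg' : ∀ x y, B (g' x) (g' y) = B x y) (hgN : g ^ N = 1)
    (hP : ∀ x, P (g x) = g' (P x)) {T : cm g ≃ₗ[F] cm g} (hT : ∀ x, T (gc g x) = gc g (T x))
    (hh : ∀ x y, B (h x) (h y) = B x y) (hhT : ∀ x : cm g, h x = P (T.symm x : cm g)) : ∀ x, h (g x) = g' (h x) := by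
  have hc := isCompl_fx_cm hN hgN
  have hsurj : ∀ z ∈ cm g', ∃ w : cm g, h w = z := by
    intro z hz
    have h1 : P.symm z ∈ cm g := by
      refine map_cm (g := g') (g' := g) (P := P.symm) (fun x => ?_) hz
      apply P.injective
      rw [P.apply_symm_apply, hP, P.apply_symm_apply]
    refine ⟨T ⟨P.symm z, h1⟩, ?_⟩
    rw [hhT, T.symm_apply_apply]
    exact P.apply_symm_apply z
  intro x
  obtain ⟨x1, hx1, x2, hx2, rfl⟩ := Submodule.mem_sup.1 (by rw [hc.sup_eq_top]; trivial : x ∈ fx g ⊔ cm g)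
  rw [map_add, map_add, map_add, map_add]
  congr 1
  · rw [mem_fx.1 hx1]
    symm
    rw [← mem_fx]
    apply mem_fx_of_perp hg' hB
    intro y hy
    obtain ⟨w, rfl⟩ := hsurj y hy
    rw [hh]
    exact perp_left hg hx1 w.2
  · have e1 : h (g x2) = h ((gc g ⟨x2, hx2⟩ : cm g)) := rfl
    have e2 : h x2 = h ((⟨x2, hx2⟩ : cm g) : V) := rfl
    have e3 : T.symm (gc g ⟨x2, hx2⟩) = gc g (T.symm ⟨x2, hx2⟩) := by
      rw [LinearEquiv.symm_apply_eq, hT, T.apply_symm_apply]
    rw [e1, e2, hhT, hhT, e3, coe_gc, hP]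

include hN hodd in
/-- conjugacy in symplectic groups -/
theorem conj_alt {B : LinearMap.BilinForm F V} (hA : B.IsAlt) (hBn : B.Nondegenerate) {g g' P : V ≃ₗ[F] V}
    (hg : ∀ x y, B (g x) (g y) = B x y) (hg' : ∀ x y, B (g' x) (g' y) = B x y) (hgN : g ^ N = 1)
    (hP : ∀ x, P (g x) = g' (P x)) : ∃ h : V ≃ₗ[F] V, (∀ x y, B (h x) (h y) = B x y) ∧ ∀ x, h (g x) = g' (h x) := by
  have hB := hBn.1
  have hs : ∀ x y, B y x = -1 * B x y := by
    intro x y
    rw [← LinearMap.BilinForm.IsAlt.neg_eq hA x y]; ring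
  let B' : LinearMap.BilinForm F V := B.comp (P : V →ₗ[F] V) (P : V →ₗ[F] V)
  have hB'a : ∀ x y, B' x y = B (P x) (P y) := fun x y => rfl
  obtain ⟨T, hT1, hT2⟩ := exists_T2 (B := B) (B' := B') hN hg (by
    intro x y
    rw [hB'a, hB'a, hP, hP, hg']) hgN hodd (ε := -1) (by ring) hs (fun x y => hs _ _) hB (by
      intro x hx
      have h1 : P x = 0 := by
        apply hB
        intro y
        have := hx (P.symm y)
        rwa [hB'a, P.apply_symm_apply] at this
      exact (map_eq_zero_iff P P.injective).1 h1)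
  -- the isometry between the commutator spaces
  let φ0 : cm g →ₗ[F] cm g' := ((P : V →ₗ[F] V).restrict (fun _ hx => map_cm hP hx)) ∘ₗ (T.symm : cm g →ₗ[F] cm g)
  have hφ0 : ∀ x, (φ0 x : V) = P (T.symm x : cm g) := fun x => rfl
  have hbij : Function.Bijective φ0 := by
    constructor
    · intro x y hxy
      have h1 : P (T.symm x : cm g) = P (T.symm y : cm g) := congrArg Subtype.val hxy
      exact T.symm.injective (Subtype.ext (P.injective h1))
    · rintro ⟨z, hz⟩
      have h1 : P.symm z ∈ cm g := by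
        refine map_cm (g := g') (g' := g) (P := P.symm) (fun x => ?_) hz
        apply P.injective
        rw [P.apply_symm_apply, hP, P.apply_symm_apply]
      refine ⟨T ⟨P.symm z, h1⟩, Subtype.ext ?_⟩
      rw [hφ0, T.symm_apply_apply]
      exact P.apply_symm_apply z
  obtain ⟨h, hh1, hh2⟩ := (Cfsg.Agent.Witt.isWittForm_of_isAlt B hBn hA).extend (cm g) (cm g') (LinearEquiv.ofBijective φ0 hbij) (by
    intro x x'
    change B (φ0 x : V) (φ0 x' : V) = _
    rw [hφ0, hφ0, ← hB'a, hT2, T.apply_symm_apply, T.apply_symm_apply])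
  exact ⟨h, hh1, finish hN hB hg hg' hgN hP hT1 hh1 hh2⟩

open QuadraticMap Cfsg.Agent.Orth in
include hN hodd in
/-- conjugacy in orthogonal groups -/
theorem conj_quad {Q : QuadraticForm F V} (hBn : (polarBilin Q).Nondegenerate) {g g' P : V ≃ₗ[F] V}
    (hg : ∀ x, Q (g x) = Q x) (hg' : ∀ x, Q (g' x) = Q x) (hgN : g ^ N = 1)
    (hP : ∀ x, P (g x) = g' (P x)) : ∃ h : V ≃ₗ[F] V, (∀ x, Q (h x) = Q x) ∧ ∀ x, h (g x) = g' (h x) := by
  set B : LinearMap.BilinForm F V := polarBilin Q with hBdef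
  have hBa : ∀ x y, B x y = Q (x + y) - Q x - Q y := fun x y => rfl
  have hpres : ∀ h : V ≃ₗ[F] V, (∀ x, Q (h x) = Q x) → ∀ x y, B (h x) (h y) = B x y := by
    intro h hh x y
    rw [hBa, hBa, ← map_add, hh, hh, hh]
  have hgB := hpres g hg
  have hgB' := hpres g' hg'
  have hB := hBn.1
  have hs : ∀ x y, B y x = 1 * B x y := by
    intro x y
    rw [hBa, hBa, one_mul, add_comm y x]; ring
  let B' : LinearMap.BilinForm F V := LinearMap.BilinForm.comp B (P : V →ₗ[F] V) (P : V →ₗ[F] V)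
  have hB'a : ∀ x y, B' x y = B (P x) (P y) := fun x y => rfl
  obtain ⟨T, hT1, hT2⟩ := exists_T2 (B := B) (B' := B') hN hgB (by
    intro x y
    rw [hB'a, hB'a, hP, hP, hgB']) hgN hodd (ε := 1) (by ring) hs (fun x y => hs _ _) hB (by
      intro x hx
      have h1 : P x = 0 := by
        apply hB
        intro y
        have := hx (P.symm y)
        rwa [hB'a, P.apply_symm_apply] at this
      exact (map_eq_zero_iff P P.injective).1 h1)
  -- quadratic forms agree
  have hQT : ∀ x : cm g, Q (P x) = Q (T x : cm g) := by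
    have hadd : ∀ x y : cm g, Q (P (x + y : cm g)) - Q (T (x + y) : cm g) =
        (Q (P x) - Q (T x : cm g)) + (Q (P y) - Q (T y : cm g)) := by
      intro x y
      have h1 := hT2 x y
      rw [hB'a, hBa, hBa, ← map_add, ← Submodule.coe_add, ← Submodule.coe_add, ← map_add] at h1
      linear_combination h1
    have hinv : ∀ x : cm g, Q (P (gc g x : cm g)) - Q (T (gc g x) : cm g) = Q (P x) - Q (T x : cm g) := by
      intro x
      rw [coe_gc, hP, hg', hT1, coe_gc, hg]
    intro x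
    -- x = (g - 1) y with y ∈ cm g
    have hc := isCompl_fx_cm hN hgN
    obtain ⟨y, hy⟩ := mem_cm.1 x.2
    obtain ⟨y1, hy1, y2, hy2, rfl⟩ := Submodule.mem_sup.1 (by rw [hc.sup_eq_top]; trivial : y ∈ fx g ⊔ cm g)
    have hx : gc g ⟨y2, hy2⟩ = x + ⟨y2, hy2⟩ := by
      apply Subtype.ext
      rw [coe_gc, Submodule.coe_add, ← hy, map_add, mem_fx.1 hy1]
      change g y2 = y1 + g y2 - (y1 + y2) + y2
      abel
    have h1 := hinv ⟨y2, hy2⟩
    rw [hx, hadd] at h1
    exact sub_eq_zero.1 (add_eq_right.1 h1)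
  let φ0 : cm g →ₗ[F] V := (P : V →ₗ[F] V) ∘ₗ (cm g).subtype ∘ₗ (T.symm : cm g →ₗ[F] cm g)
  have hφ0 : ∀ x, φ0 x = P (T.symm x : cm g) := fun x => rfl
  obtain ⟨h, hh⟩ := witt hBn (cm g) φ0 (by
    intro x y hxy
    rw [hφ0, hφ0] at hxy
    exact T.symm.injective (Subtype.ext (P.injective hxy))) (by
    intro x
    rw [hφ0, hQT, T.apply_symm_apply])
  have hhQ : ∀ x, Q ((h : V ≃ₗ[F] V) x) = Q x := fun x => h.2 x
  exact ⟨h, hhQ, finish hN hB hgB hgB' hgN hP hT1 (hpres _ hhQ) hh⟩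

end Cfsg.Agent.Iso44
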