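import Cfsg.Agent.Iso44.UniqLin

/-!
Fixed space and commutator space of an isometry of odd order.
-/

set_option autoImplicit false

namespace Cfsg.Agent.Iso44

open Module

variable {F V : Type*} [Field F] [AddCommGroup V] [Module F V]

/-- the fixed space -/
def fx (g : V ≃ₗ[F] V) : Submodule F V := LinearMap.ker ((g : V →ₗ[F] V) - LinearMap.id)

/-- the commutator space -/
def cm (g : V ≃ₗ[F] V) : Submodule F V := LinearMap.range ((g : V →ₗ[F] V) - LinearMap.id)

theorem mem_fx {g : V ≃ₗ[F] V} {x : V} : x ∈ fx g ↔ g x = x := by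
  rw [fx, LinearMap.mem_ker, LinearMap.sub_apply, sub_eq_zero]; rfl

theorem mem_cm {g : V ≃ₗ[F] V} {x : V} : x ∈ cm g ↔ ∃ y, g y - y = x := Iff.rfl

theorem map_mem_cm {g : V ≃ₗ[F] V} {x : V} (hx : x ∈ cm g) : g x ∈ cm g := by
  obtain ⟨y, rfl⟩ := mem_cm.1 hx
  exact mem_cm.2 ⟨g y, (map_sub g _ _).symm⟩

theorem pow_apply_of {g : V ≃ₗ[F] V} {y : V} (h : g (g y - y) = g y - y) (k : ℕ) : (g ^ k) y = y + k • (g y - y) := by
  induction k with
  | zero => simp
  | succ k ih =>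
    rw [pow_succ', LinearEquiv.mul_apply, ih, map_add, map_nsmul, h, add_smul, one_smul]
    abel

variable {N : ℕ} (hN : (N : F) ≠ 0)

include hN in
theorem disjoint_fx_cm {g : V ≃ₗ[F] V} (hg : g ^ N = 1) {x : V} (h1 : x ∈ fx g) (h2 : x ∈ cm g) : x = 0 := by
  obtain ⟨y, rfl⟩ := mem_cm.1 h2
  have h3 := pow_apply_of (mem_fx.1 h1) N
  rw [hg] at h3
  have h4 : (N : F) • (g y - y) = 0 := by
    rw [Nat.cast_smul_eq_nsmul]
    exact (left_eq_add.1 h3)
  exact (smul_eq_zero.1 h4).resolve_left hN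

include hN in
theorem isCompl_fx_cm [FiniteDimensional F V] {g : V ≃ₗ[F] V} (hg : g ^ N = 1) : IsCompl (fx g) (cm g) := by
  have hd : Disjoint (fx g) (cm g) := by
    rw [Submodule.disjoint_def]
    exact fun x h1 h2 => disjoint_fx_cm hN hg h1 h2
  refine ⟨hd, ?_⟩
  rw [codisjoint_iff]
  apply Submodule.eq_top_of_finrank_eq
  have h1 := Submodule.finrank_sup_add_finrank_inf_eq (fx g) (cm g)
  rw [disjoint_iff.1 hd, finrank_bot, add_zero] at h1
  rw [h1, add_comm]
  exact LinearMap.finrank_range_add_finrank_ker _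

include hN in
theorem fx_of_sq {g : V ≃ₗ[F] V} (hg : g ^ N = 1) (hodd : Odd N) {x : V} (h : g (g x) = x) : g x = x := by
  obtain ⟨k, rfl⟩ := hodd
  have h1 : ∀ j : ℕ, (g ^ (2 * j)) x = x := by
    intro j
    induction j with
    | zero => simp
    | succ j ih =>
      rw [mul_add, mul_one, pow_add, LinearEquiv.mul_apply, pow_two, LinearEquiv.mul_apply, h, ih]
  have h2 : (g ^ (2 * k + 1)) x = g x := by rw [pow_succ', LinearEquiv.mul_apply, h1]
  rw [hg] at h2
  exact h2.symm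

/-- the restriction of `g` to the commutator space -/
noncomputable def gc [FiniteDimensional F V] (g : V ≃ₗ[F] V) : cm g ≃ₗ[F] cm g :=
  LinearEquiv.ofInjectiveEndo ((g : V →ₗ[F] V).restrict (fun _ hx => map_mem_cm hx)) (by
    intro x y h
    exact Subtype.ext (g.injective (congrArg Subtype.val h)))

theorem coe_gc [FiniteDimensional F V] (g : V ≃ₗ[F] V) (x : cm g) : ((gc g x : cm g) : V) = g x := rfl

section form
variable {B : LinearMap.BilinForm F V} {g : V ≃ₗ[F] V} (hg : ∀ x y, B (g x) (g y) = B x y)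

include hg in
theorem perp_left {x y : V} (hx : x ∈ fx g) (hy : y ∈ cm g) : B x y = 0 := by
  obtain ⟨z, rfl⟩ := mem_cm.1 hy
  have h1 : B x (g z) = B x z := by
    have h2 := hg x z
    rwa [mem_fx.1 hx] at h2
  rw [map_sub, h1, sub_self]

include hg in
theorem mem_fx_of_perp (hB : ∀ x, (∀ y, B x y = 0) → x = 0) {x : V} (hx : ∀ y ∈ cm g, B x y = 0) : x ∈ fx g := by
  rw [mem_fx]
  have h1 : ∀ y, B (g x - x) (g y) = 0 := by
    intro y
    rw [map_sub, LinearMap.sub_apply, hg, sub_eq_zero]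
    have h2 := hx (g y - y) (mem_cm.2 ⟨y, rfl⟩)
    rw [map_sub, sub_eq_zero] at h2
    exact h2.symm
  refine sub_eq_zero.1 (hB _ fun y => ?_)
  rw [← g.apply_symm_apply y]
  exact h1 _

variable [FiniteDimensional F V]

include hN hg in
/-- equivalence of two invariant forms on the commutator space -/
theorem exists_T2 [Finite F] {B' : LinearMap.BilinForm F V} (hg' : ∀ x y, B' (g x) (g y) = B' x y) (hgN : g ^ N = 1) (hodd : Odd N)
    {ε : F} (hε : ε * ε = 1) (hs : ∀ x y, B y x = ε * B x y) (hs' : ∀ x y, B' y x = ε * B' x y)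
    (hB : ∀ x, (∀ y, B x y = 0) → x = 0) (hB' : ∀ x, (∀ y, B' x y = 0) → x = 0) :
    ∃ T : cm g ≃ₗ[F] cm g, (∀ x, T (gc g x) = gc g (T x)) ∧ ∀ x y : cm g, B' x y = B (T x) (T y) := by
  have hc := isCompl_fx_cm hN hgN
  have hnd : ∀ C : LinearMap.BilinForm F V, (∀ x y, C (g x) (g y) = C x y) → (∀ x y, C y x = ε * C x y) →
      (∀ x, (∀ y, C x y = 0) → x = 0) → ∀ x : cm g, (∀ y : cm g, C x y = 0) → x = 0 := by
    intro C hCg hCs hC x hx
    apply Subtype.ext
    apply hC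
    intro y
    obtain ⟨y1, hy1, y2, hy2, rfl⟩ := Submodule.mem_sup.1 (by rw [hc.sup_eq_top]; trivial : y ∈ fx g ⊔ cm g)
    have h1 : C (x : V) y1 = 0 := by rw [hCs y1 x, perp_left hCg hy1 x.2, mul_zero]
    rw [map_add, h1, zero_add]
    exact hx ⟨y2, hy2⟩
  obtain ⟨T, hT1, hT2⟩ := uniq_lin (B.restrict (cm g)) (B'.restrict (cm g)) (hnd B hg hs hB) (hnd B' hg' hs' hB') hε
    (fun x y => hs x y) (fun x y => hs' x y) (gc g) (fun x y => hg x y) (fun x y => hg' x y) (by
      intro x hx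
      have h1 : g (g (x : V)) = x := congrArg Subtype.val hx
      have h2 := fx_of_sq hN hgN hodd h1
      exact Subtype.ext (disjoint_fx_cm hN hgN (mem_fx.2 h2) x.2))
  exact ⟨T, hT1, hT2⟩

end form

end Cfsg.Agent.Iso44
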