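import Cfsg.Agent.Iso44.Setup
import Cfsg.Agent.Orth.TraceForm
import Cfsg.Agent.S2389
import Cfsg.Agent.Uni.Basis
import Mathlib.FieldTheory.Finite.GaloisField

/-!
Centralisers of fixed point free elements of order three in symplectic groups.
-/

set_option autoImplicit false

namespace Cfsg.Agent.Iso44.Fpf3

open Polynomial Module Cfsg.Agent.Orth Cfsg.Agent.H39

theorem two_ne : (2 : ZMod 3) ≠ 0 := by decide

theorem one_ne : (1 : ZMod 3) ≠ 0 := by decide

theorem sum_three (f : ZMod 3 → ℕ) : (∑ j : ZMod 3, f j) = f 0 + f 1 + f 2 :=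
  Fin.sum_univ_three f

theorem cases_three : ∀ j : ZMod 3, j = 0 ∨ j = 1 ∨ j = 2 := by decide

section mults

variable {E : Type*} [Field E] [IsAlgClosed E] {F : Type*} [Field F] [Finite F] [Algebra F E]
variable {V : Type*} [AddCommGroup V] [Module F V] [FiniteDimensional F V]

theorem mult_eq {ζ : E} (hζ : IsPrimitiveRoot ζ 3) {q m : ℕ} (hq : Nat.card F = q) (hq3 : q % 3 = 2) (hV : finrank F V = 2 * m)
    (g : End F V) (hg : g ^ 3 = 1) (h1 : ∀ v, g v = v → v = 0) :
    (mult ζ g : ZMod 3 → ℕ) = fun j => if j = 0 then 0 else m := by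
  haveI : Fact (Nat.Prime 3) := ⟨Nat.prime_three⟩
  have hz : mult ζ g (0 : ZMod 3) = 0 := by
    rw [mult]
    apply rootMultiplicity_eq_zero
    rw [rt_zero hζ]
    intro hroot
    rw [IsRoot.def, eval_map_algebraMap] at hroot
    have h2 : aeval (algebraMap F E 1) g.charpoly = 0 := by rw [map_one]; exact hroot
    rw [aeval_algebraMap_apply] at h2
    have h3 := (map_eq_zero_iff _ (algebraMap F E).injective).mp h2
    rw [coe_aeval_eq_eval] at h3
    have h4 := (Module.End.hasEigenvalue_iff_isRoot_charpoly g 1).mpr h3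
    obtain ⟨v, hv⟩ := h4.exists_hasEigenvector
    apply hv.2
    apply h1
    have := hv.apply_eq_smul
    rwa [one_smul] at this
  have hq' : ((q : ℕ) : ZMod 3) = 2 := by
    have : q = 3 * (q / 3) + 2 := by omega
    rw [this]
    push_cast
    rw [show ((3 : ZMod 3)) = 0 from rfl]
    ring
  have h12 : mult ζ g (2 : ZMod 3) = mult ζ g (1 : ZMod 3) := by
    have := mult_frob hζ (q := q) hq (by rw [hq']; exact two_ne) g hg 1
    rw [hq', mul_one] at this
    exact this
  have hsum := sum_mult hζ g hg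
  rw [hV] at hsum
  have hs : (∑ j : ZMod 3, mult ζ g j) = mult ζ g (0 : ZMod 3) + mult ζ g (1 : ZMod 3) + mult ζ g (2 : ZMod 3) :=
    sum_three (fun j => mult ζ g j)
  rw [hs, hz, h12] at hsum
  have hm : mult ζ g (1 : ZMod 3) = m := by omega
  funext j
  rcases cases_three j with rfl | rfl | rfl
  · rw [hz, if_pos rfl]
  · rw [hm, if_neg one_ne]
  · rw [h12, hm, if_neg two_ne]

end mults

/-- fixed point free elements of order three are conjugate -/
theorem isConj {F : Type*} [Field F] [Fintype F] {q : ℕ} (hF : Fintype.card F = q) (hq : q % 3 = 2) {m : ℕ}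
    (x y : Matrix.symplecticGroup (Fin m) F) (hx3 : x ^ 3 = 1) (hy3 : y ^ 3 = 1)
    (hx : ∀ v, (x : Matrix (Fin m ⊕ Fin m) (Fin m ⊕ Fin m) F).mulVec v = v → v = 0)
    (hy : ∀ v, (y : Matrix (Fin m ⊕ Fin m) (Fin m ⊕ Fin m) F).mulVec v = v → v = 0) : IsConj x y := by
  haveI : Fact (Nat.Prime 3) := ⟨Nat.prime_three⟩
  obtain ⟨p, hp⟩ := CharP.exists F
  haveI := hp
  obtain ⟨e, hpp, he⟩ := FiniteField.card F p
  haveI : Fact p.Prime := ⟨hpp⟩
  have hp3 : 3 ≠ p := by
    rintro rfl
    have : 3 ∣ q := by rw [← hF, he]; exact dvd_pow_self 3 e.ne_zero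
    omega
  obtain ⟨ζ, hζ⟩ := exists_zeta (F := F) (r := 3) (rF_ne_zero Nat.prime_three hp3)
  have hfr : finrank F (Fin m ⊕ Fin m → F) = 2 * m := by
    rw [finrank_fintype_fun_eq_card, Fintype.card_sum, Fintype.card_fin]
    ring
  have hpow : ∀ z : Matrix.symplecticGroup (Fin m) F, z ^ 3 = 1 → (Matrix.toLin' (z : Matrix (Fin m ⊕ Fin m) (Fin m ⊕ Fin m) F)) ^ 3 = 1 := by
    intro z hz
    rw [← Matrix.toLin'_pow]
    have h1 : (z : Matrix (Fin m ⊕ Fin m) (Fin m ⊕ Fin m) F) ^ 3 = 1 := congrArg Subtype.val hz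
    rw [h1, Matrix.toLin'_one]
    rfl
  have h1 := mult_eq hζ (q := q) (by rw [Nat.card_eq_fintype_card, hF]) hq hfr (Matrix.toLin' (x : Matrix (Fin m ⊕ Fin m) (Fin m ⊕ Fin m) F))
    (hpow x hx3) (fun v hv => hx v (by rwa [Matrix.toLin'_apply] at hv))
  have h2 := mult_eq hζ (q := q) (by rw [Nat.card_eq_fintype_card, hF]) hq hfr (Matrix.toLin' (y : Matrix (Fin m ⊕ Fin m) (Fin m ⊕ Fin m) F))
    (hpow y hy3) (fun v hv => hy v (by rwa [Matrix.toLin'_apply] at hv))
  have h3 := charpoly_eq_of_mult hζ _ (hpow x hx3) _ (hpow y hy3) (h1.trans h2.symm)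
  rw [Matrix.charpoly_toLin', Matrix.charpoly_toLin'] at h3
  have hcop : ∀ z : Matrix.symplecticGroup (Fin m) F, z ^ 3 = 1 → (orderOf z).Coprime p := by
    intro z hz
    have h4 := orderOf_dvd_of_pow_eq_one hz
    exact Nat.Coprime.coprime_dvd_left h4 ((Nat.coprime_primes Nat.prime_three hpp).mpr hp3)
  exact Cfsg.Agent.S2389.result p m x y (hcop x hx3) (hcop y hy3) h3

section cent

variable {K F : Type*} [Field K] [Fintype K] [Field F] [Fintype F] {q : ℕ} [Algebra F K] {m : ℕ}

/-- isometries of the trace form commuting with multiplications -/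
theorem herm_of_tr (hK : Fintype.card K = q ^ 2) (hF : Fintype.card F = q) {θ : K} (hθ : θ ≠ 0)
    (T : (Fin m → K) → (Fin m → K)) (hTK : ∀ (c : K) v, T (c • v) = c • T v)
    (hT : ∀ u v, trB hK hF m θ (T u) (T v) = trB hK hF m θ u v) (u v : Fin m → K) :
    Cfsg.hermForm m K q (T u) (T v) = Cfsg.hermForm m K q u v := by
  obtain ⟨z, hz⟩ := exists_trace_ne_zero (F := F) hK hF
  by_contra hne
  set d := Cfsg.hermForm m K q (T u) (T v) - Cfsg.hermForm m K q u v with hd
  have hd0 : d ≠ 0 := sub_ne_zero.mpr hne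
  have h1 := hT ((z / (θ * d)) • u) v
  rw [hTK, trB_apply, trB_apply, herm_smul_left, herm_smul_left, ← sub_eq_zero, ← map_sub] at h1
  apply hz
  have h2 : θ * (z / (θ * d) * Cfsg.hermForm m K q (T u) (T v)) - θ * (z / (θ * d) * Cfsg.hermForm m K q u v) = z := by
    have : θ * (z / (θ * d) * Cfsg.hermForm m K q (T u) (T v)) - θ * (z / (θ * d) * Cfsg.hermForm m K q u v) = (z / (θ * d)) * (θ * d) := by
      rw [hd]; ring
    rw [this, div_mul_cancel₀ _ (mul_ne_zero hθ hd0)]
  rw [← h2]
  exact h1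

end cent

/-- the order of the centralizer of a particular element -/
theorem exists_cent {F : Type*} [Field F] [Fintype F] {q : ℕ} (hF : Fintype.card F = q) (hq : q % 3 = 2) (m : ℕ) :
    ∃ x : Matrix.symplecticGroup (Fin m) F, x ^ 3 = 1 ∧ (∀ v, (x : Matrix (Fin m ⊕ Fin m) (Fin m ⊕ Fin m) F).mulVec v = v → v = 0) ∧
      Nat.card ↥(Subgroup.centralizer ({x} : Set ↥(Matrix.symplecticGroup (Fin m) F))) =
        q ^ (m * (m - 1) / 2) * ∏ i ∈ Finset.range m, (if Even i then q ^ (i + 1) + 1 else q ^ (i + 1) - 1) := by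
  classical
  haveI : Fact (Nat.Prime 3) := ⟨Nat.prime_three⟩
  obtain ⟨p, hp⟩ := CharP.exists F
  haveI := hp
  obtain ⟨e, hpp, he⟩ := FiniteField.card F p
  haveI : Fact p.Prime := ⟨hpp⟩
  -- the quadratic extension
  let K := GaloisField p (2 * e)
  haveI : Fintype K := Fintype.ofFinite _
  have hK : Fintype.card K = q ^ 2 := by
    rw [← Nat.card_eq_fintype_card, GaloisField.card p (2 * e) (by have := e.pos; omega), ← hF, he, ← pow_mul, mul_comm]
  obtain ⟨ι⟩ := exists_ringHom hK hF
  letI : Algebra F K := ι.toAlgebra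
  obtain ⟨θ, hθ0, hθ⟩ := exists_trace_zero (F := F) hK hF
  have hA := trB_isAlt (m := m) hK hF hθ
  have hB := trB_nondegenerate_of_alt (m := m) hK hF hθ hθ0
  obtain ⟨k, e₁, f, b, h, he₁, hf, hk⟩ := Cfsg.Agent.Witt.exists_darboux (trB hK hF m θ) hA hB
  rw [finrank_V2 hK hF] at hk
  obtain rfl : k = m := by omega
  have hsf := darboux_sf hA b h he₁ hf
  -- the cube root of unity
  obtain ⟨ω, hω⟩ : ∃ ω : Kˣ, orderOf ω = 3 := by
    apply exists_prime_orderOf_dvd_card 3
    rw [Fintype.card_units, hK]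
    have h1 : q ^ 2 % 3 = 1 := by rw [Nat.pow_mod, hq]
    have h2 := Nat.div_add_mod (q ^ 2) 3
    omega
  have hω3 : ω ^ 3 = 1 := by rw [← hω]; exact pow_orderOf_eq_one ω
  have hω1 : ω ≠ 1 := by
    rintro rfl
    rw [orderOf_one] at hω
    omega
  have hω1' : (ω : K) ≠ 1 := fun h => hω1 (Units.ext h)
  have hω3' : (ω : K) ^ 3 = 1 := by rw [← Units.val_pow_eq_pow_val, hω3, Units.val_one]
  -- `ω` is not in `F`
  have hωF : ∀ a : F, algebraMap F K a ≠ ω := by
    intro a ha
    have h1 : a ^ 3 = 1 := by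
      apply (algebraMap F K).injective
      rw [map_pow, ha, map_one, hω3']
    have h2 : a ≠ 0 := by
      rintro rfl
      simp at h1
    have h3 : (Units.mk0 a h2) ^ 3 = 1 := by
      ext
      simpa using h1
    have h4 : (Units.mk0 a h2) ^ (q - 1) = 1 := by
      ext
      simp only [Units.val_pow_eq_pow_val, Units.val_mk0, Units.val_one]
      rw [← hF]
      exact FiniteField.pow_card_sub_one_eq_one a h2
    have h5 := orderOf_dvd_of_pow_eq_one h3
    have h6 := orderOf_dvd_of_pow_eq_one h4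
    have h7 : Nat.Coprime 3 (q - 1) := by
      rw [Nat.Prime.coprime_iff_not_dvd Nat.prime_three]
      omega
    have h8 : orderOf (Units.mk0 a h2) = 1 := Nat.eq_one_of_dvd_coprimes h7 h5 h6
    have h9 := orderOf_eq_one_iff.mp h8
    apply hω1'
    rw [← ha]
    have h10 := congrArg Units.val h9
    simp only [Units.val_mk0, Units.val_one] at h10
    rw [h10, map_one]
  -- `K = F + F ω`
  have hspan : ∀ c : K, ∃ a a' : F, c = algebraMap F K a + algebraMap F K a' * ω := by
    have hli : LinearIndependent F ![(1 : K), (ω : K)] := by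
      rw [LinearIndependent.pair_iff]
      intro s t hst
      have h1 : algebraMap F K s + algebraMap F K t * ω = 0 := by
        rw [Algebra.smul_def, Algebra.smul_def, mul_one] at hst
        exact hst
      have ht : t = 0 := by
        by_contra ht
        apply hωF (-(s / t))
        have h2 : algebraMap F K t ≠ 0 := by
          rw [Ne, map_eq_zero_iff _ (algebraMap F K).injective]
          exact ht
        rw [map_neg, map_div₀, neg_eq_iff_eq_neg, div_eq_iff h2]
        linear_combination h1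
      subst ht
      rw [map_zero, zero_mul, add_zero] at h1
      exact ⟨(map_eq_zero_iff _ (algebraMap F K).injective).mp h1, rfl⟩
    have htop := hli.span_eq_top_of_card_eq_finrank' (by rw [Fintype.card_fin, finrank_two hK hF])
    intro c
    have hc : c ∈ Submodule.span F (Set.range ![(1 : K), (ω : K)]) := by rw [htop]; trivial
    rw [Matrix.range_cons, Matrix.range_cons, Matrix.range_empty, Set.union_empty, Set.singleton_union] at hc
    obtain ⟨a, a', haa⟩ := Submodule.mem_span_pair.mp hc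
    refine ⟨a, a', ?_⟩
    rw [← haa, Algebra.smul_def, Algebra.smul_def, mul_one]
  -- the matrix of a map
  have htm : ∀ (T : (Fin k → K) →ₗ[F] (Fin k → K)) w, (LinearMap.toMatrix b b T).mulVec
        (b.equivFun w) = b.equivFun (T w) := fun T w =>
      LinearMap.toMatrix_mulVec_repr b b T w
  have hmem : ∀ T : (Fin k → K) →ₗ[F] (Fin k → K), (∀ u v, trB hK hF k θ (T u) (T v) = trB hK hF k θ u v) →
      LinearMap.toMatrix b b T ∈ Matrix.symplecticGroup (Fin k) F := by
    intro T hT
    rw [ClassSp.mem_symplectic_iff]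
    intro u v
    obtain ⟨u', rfl⟩ := b.equivFun.surjective u
    obtain ⟨v', rfl⟩ := b.equivFun.surjective v
    rw [htm, htm, hsf, hsf, hT]
  -- multiplication by ω
  let W : (Fin k → K) →ₗ[F] (Fin k → K) :=
    { toFun := fun v => (ω : K) • v
      map_add' := fun u v => smul_add _ _ _
      map_smul' := fun a v => smul_comm (ω : K) a v }
  have hnorm : (ω : K) * (ω : K) ^ q = 1 := by
    rw [← pow_succ']
    have h1 : q + 1 = 3 * ((q + 1) / 3) := by omega
    rw [h1, pow_mul, hω3', one_pow]
  have hW : ∀ u v, trB hK hF k θ (W u) (W v) = trB hK hF k θ u v := by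
    intro u v
    rw [trB_apply, trB_apply]
    congr 2
    show Cfsg.hermForm k K q ((ω : K) • u) ((ω : K) • v) = _
    rw [herm_smul_left, herm_smul_right, ← mul_assoc, hnorm, one_mul]
  let x : Matrix.symplecticGroup (Fin k) F := ⟨_, hmem W hW⟩
  have hxW : (x : Matrix (Fin k ⊕ Fin k) (Fin k ⊕ Fin k) F) = LinearMap.toMatrix b b W := rfl
  have hW3 : W ^ 3 = 1 := by
    apply LinearMap.ext
    intro v
    show (ω : K) • ((ω : K) • ((ω : K) • v)) = v
    rw [smul_smul, smul_smul, ← pow_two, ← pow_succ, hω3', one_smul]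
  refine ⟨x, ?_, ?_, ?_⟩
  · apply Subtype.ext
    show (x : Matrix (Fin k ⊕ Fin k) (Fin k ⊕ Fin k) F) ^ 3 = 1
    rw [hxW, LinearMap.toMatrix_pow, hW3]
    exact LinearMap.toMatrix_one b
  · intro v hv
    obtain ⟨w, rfl⟩ := b.equivFun.surjective v
    rw [hxW, htm] at hv
    have h1 : (ω : K) • w = w := b.equivFun.injective hv
    have h2 : ((ω : K) - 1) • w = 0 := by rw [sub_smul, one_smul, h1, sub_self]
    rcases smul_eq_zero.mp h2 with h3 | h3
    · exact absurd (sub_eq_zero.mp h3) hω1'
    · rw [h3, map_zero]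
  · rw [← Cfsg.Agent.Uni.card_GU hK k]
    symm
    have hgmem : ∀ g : ↥(Cfsg.GU k K q), LinearMap.toMatrix b b (guF k K F q g : (Fin k → K) →ₗ[F] (Fin k → K))
      ∈ Matrix.symplecticGroup (Fin k) F := fun g => hmem _ (fun u v => trB_guF hK hF θ g u v)
    have hgc : ∀ g : ↥(Cfsg.GU k K q), (⟨_, hgmem g⟩ : Matrix.symplecticGroup (Fin k) F) ∈
        Subgroup.centralizer ({x} : Set ↥(Matrix.symplecticGroup (Fin k) F)) := by
      intro g
      rw [Subgroup.mem_centralizer_singleton_iff]
      apply Subtype.ext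
      show LinearMap.toMatrix b b (guF k K F q g : (Fin k → K) →ₗ[F] (Fin k → K)) * LinearMap.toMatrix b b W =
        LinearMap.toMatrix b b W * LinearMap.toMatrix b b (guF k K F q g : (Fin k → K) →ₗ[F] (Fin k → K))
      rw [← LinearMap.toMatrix_mul, ← LinearMap.toMatrix_mul]
      congr 1
      apply LinearMap.ext
      intro v
      show guF k K F q g ((ω : K) • v) = (ω : K) • guF k K F q g v
      rw [guF_apply, guF_apply, Matrix.mulVec_smul]
    apply Nat.card_congr
    apply Equiv.ofBijective (fun g : ↥(Cfsg.GU k K q) => (⟨_, hgc g⟩ : ↥(Subgroup.centralizer ({x} : Set ↥(Matrix.symplecticGroup (Fin k) F)))))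
    constructor
    · intro g h hgh
      apply guF_injective (F := F)
      have h1 := congrArg (fun z : ↥(Subgroup.centralizer ({x} : Set ↥(Matrix.symplecticGroup (Fin k) F))) => ((z : Matrix.symplecticGroup (Fin k) F) : Matrix (Fin k ⊕ Fin k) (Fin k ⊕ Fin k) F)) hgh
      have h2 := (LinearMap.toMatrix b b).injective h1
      exact LinearEquiv.toLinearMap_injective h2
    · rintro ⟨A, hAc⟩
      rw [Subgroup.mem_centralizer_singleton_iff] at hAc
      set T := Matrix.toLin b b (A : Matrix (Fin k ⊕ Fin k) (Fin k ⊕ Fin k) F) with hT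
      have hTA : LinearMap.toMatrix b b T = (A : Matrix (Fin k ⊕ Fin k) (Fin k ⊕ Fin k) F) := by rw [hT, LinearMap.toMatrix_toLin]
      have hTW : ∀ v, T ((ω : K) • v) = (ω : K) • T v := by
        have h1 : T * W = W * T := by
          apply (LinearMap.toMatrix b b).injective
          rw [LinearMap.toMatrix_mul, LinearMap.toMatrix_mul, hTA]
          exact congrArg Subtype.val hAc
        intro v
        exact LinearMap.congr_fun h1 v
      have hTK : ∀ (c : K) v, T (c • v) = c • T v := by
        intro c v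
        obtain ⟨a, a', rfl⟩ := hspan c
        have hsm : ∀ (a : F) (u : Fin k → K), (algebraMap F K a) • u = a • u := by
          intro a u
          funext i
          simp only [Pi.smul_apply, smul_eq_mul, Algebra.smul_def]
        rw [add_smul, mul_smul, hsm, hsm, map_add, map_smul, map_smul, hTW, add_smul, mul_smul, hsm, hsm]
      have hTiso : ∀ u v, trB hK hF k θ (T u) (T v) = trB hK hF k θ u v := by
        intro u v
        rw [← hsf, ← hsf u v, ← htm, ← htm, hTA, ClassSp.sf_mulVec]
      have hherm := herm_of_tr hK hF hθ0 T hTK hTiso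
      let TK : (Fin k → K) →ₗ[K] (Fin k → K) :=
        { toFun := T
          map_add' := map_add T
          map_smul' := fun c v => hTK c v }
      have hTKv : ∀ v, (LinearMap.toMatrix' TK).mulVec v = T v := fun v => LinearMap.toMatrix'_mulVec TK v
      have hinj : Function.Injective TK := by
        rw [← LinearMap.ker_eq_bot, LinearMap.ker_eq_bot']
        intro v hv
        apply hB.1
        intro w
        have hv' : T v = 0 := hv
        rw [← hTiso, hv', map_zero, LinearMap.zero_apply]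
      have hdet : IsUnit (LinearMap.toMatrix' TK) := by
        have h1 := (LinearMap.isUnit_iff_ker_eq_bot TK).mpr (LinearMap.ker_eq_bot.mpr hinj)
        exact h1.map LinearMap.toMatrixAlgEquiv'
      obtain ⟨u, hu⟩ := hdet
      refine ⟨⟨u, ?_⟩, ?_⟩
      · intro v w
        show Cfsg.hermForm k K q ((u : Matrix (Fin k) (Fin k) K).mulVec v) ((u : Matrix (Fin k) (Fin k) K).mulVec w) = _
        rw [hu, hTKv, hTKv, hherm]
      · apply Subtype.ext
        apply Subtype.ext
        show LinearMap.toMatrix b b (guF k K F q ⟨u, _⟩ : (Fin k → K) →ₗ[F] (Fin k → K)) = (A : Matrix (Fin k ⊕ Fin k) (Fin k ⊕ Fin k) F)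
        rw [← hTA]
        congr 1
        apply LinearMap.ext
        intro v
        show (u : Matrix (Fin k) (Fin k) K).mulVec v = T v
        rw [hu, hTKv]

end Cfsg.Agent.Iso44.Fpf3
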