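import Cfsg.Agent.Iso44.SpR
import Mathlib.FieldTheory.IsAlgClosed.AlgebraicClosure
import Mathlib.RingTheory.RootsOfUnity.AlgebraicallyClosed

/-!
The setup of the counting theorems.
-/

set_option autoImplicit false

namespace Cfsg.Agent.Iso44

theorem qr_ne_zero {F : Type*} [Field F] [Fintype F] {p q r : ℕ} [hp : Fact p.Prime] [CharP F p] [hr : Fact r.Prime]
    (hF : Fintype.card F = q) (hrp : r ≠ p) : (q : ZMod r) ≠ 0 := by
  obtain ⟨n, -, hn⟩ := FiniteField.card F p
  rw [← hF, hn]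
  push_cast
  apply pow_ne_zero
  rw [Ne, ZMod.natCast_eq_zero_iff]
  intro h
  exact hrp ((Nat.prime_dvd_prime_iff_eq hr.out hp.out).1 h)

theorem rF_ne_zero {F : Type*} [Field F] {p r : ℕ} [hp : Fact p.Prime] [CharP F p] (hr : r.Prime) (hrp : r ≠ p) : (r : F) ≠ 0 := by
  rw [Ne, CharP.cast_eq_zero_iff F p]
  intro h
  exact hrp ((Nat.prime_dvd_prime_iff_eq hp.out hr).1 h).symm

theorem exists_zeta {F : Type*} [Field F] {r : ℕ} [hr : Fact r.Prime] (h : (r : F) ≠ 0) :
    ∃ ζ : AlgebraicClosure F, IsPrimitiveRoot ζ r := by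
  have : NeZero (r : AlgebraicClosure F) := ⟨by
    rw [← map_natCast (algebraMap F (AlgebraicClosure F))]
    exact fun h' => h ((map_eq_zero _).1 h')⟩
  have : NeZero r := ⟨hr.out.ne_zero⟩
  exact HasEnoughRootsOfUnity.exists_primitiveRoot (AlgebraicClosure F) r

end Cfsg.Agent.Iso44
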