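import Cfsg.Agent.Iso44.OR
import Cfsg.Agent.Iso44.Setup
import Cfsg.Agent.SimO.Graph5
import Cfsg.Agent.Orth.TraceForm

/-!
Centralisers of isometries of odd prime order: spinor norms and multipliers.
-/

set_option autoImplicit false

universe u

namespace Cfsg.Agent.Iso44.Fus

open QuadraticMap Module
open Cfsg.Agent.Orth hiding two_ne_zero_of_odd map_mul

section emb

variable {F : Type*} [Field F] {V U W : Type*} [AddCommGroup V] [Module F V] [AddCommGroup U] [Module F U]
  [AddCommGroup W] [Module F W] {Q : QuadraticForm F V} {QU : QuadraticForm F U} {QW : QuadraticForm F W}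

/-- extending an isometry of a summand -/
def emb (e : V ≃ₗ[F] U × W) (he : ∀ v, (QU.prod QW) (e v) = Q v) : OGrp QU →* OGrp Q where
  toFun h := ⟨(e.trans ((h : U ≃ₗ[F] U).prodCongr (1 : W ≃ₗ[F] W))).trans e.symm, by
    intro x
    have h2 : ∀ x, QU ((h : U ≃ₗ[F] U) x) = QU x := h.2
    rw [← he, ← he]
    simp only [LinearEquiv.trans_apply, e.apply_symm_apply]
    rw [QuadraticMap.prod_apply, QuadraticMap.prod_apply, LinearEquiv.prodCongr_apply, h2]
    rfl⟩
  map_one' := by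
    apply Subtype.ext
    ext x
    simp [LinearEquiv.prodCongr_apply]
  map_mul' g h := by
    apply Subtype.ext
    ext x
    simp [LinearEquiv.prodCongr_apply, LinearEquiv.mul_apply]

theorem emb_apply (e : V ≃ₗ[F] U × W) (he : ∀ v, (QU.prod QW) (e v) = Q v) (h : OGrp QU) (v : V) :
    (emb e he h : V ≃ₗ[F] V) v = e.symm ((h : U ≃ₗ[F] U) (e v).1, (e v).2) := by
  rfl

theorem emb_refl (e : V ≃ₗ[F] U × W) (he : ∀ v, (QU.prod QW) (e v) = Q v) {u : U} (hu : QU u ≠ 0) (hv : Q (e.symm (u, 0)) ≠ 0) :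
    emb e he (refl QU u hu) = refl Q (e.symm (u, 0)) hv := by
  apply OGrp_ext
  intro x
  rw [emb_apply, refl_apply, refl_apply]
  apply e.injective
  rw [e.apply_symm_apply, map_sub, map_smul, e.apply_symm_apply]
  have h1 : Q (e.symm (u, 0)) = QU u := by
    rw [← he, e.apply_symm_apply, QuadraticMap.prod_apply, map_zero, add_zero]
  have h2 : polar Q x (e.symm (u, 0)) = polar QU (e x).1 u := by
    rw [polar, polar, ← he, ← he, ← he, map_add, e.apply_symm_apply, QuadraticMap.prod_apply, QuadraticMap.prod_apply,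
      QuadraticMap.prod_apply]
    simp
  rw [h1, h2]
  ext <;> simp

theorem q_emb (e : V ≃ₗ[F] U × W) (he : ∀ v, (QU.prod QW) (e v) = Q v) (u : U) : Q (e.symm (u, 0)) = QU u := by
  rw [← he, e.apply_symm_apply, QuadraticMap.prod_apply, map_zero, add_zero]

variable [Finite F] [FiniteDimensional F V] [FiniteDimensional F U]

theorem parity_emb (e : V ≃ₗ[F] U × W) (he : ∀ v, (QU.prod QW) (e v) = Q v) (hQ : (polarBilin Q).Nondegenerate) (hR : RGrp Q = ⊤)
    (hQU : (polarBilin QU).Nondegenerate) (hRU : RGrp QU = ⊤) (h : OGrp QU) : parityHom hQ hR (emb e he h) = parityHom hQU hRU h := by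
  have h1 : (parityHom hQ hR).comp (emb e he) = parityHom hQU hRU := by
    apply AutO.hom_ext_refl hRU
    intro v hv
    rw [MonoidHom.comp_apply, emb_refl e he hv (by rw [q_emb e he]; exact hv), parityHom_refl, parityHom_refl]
  exact DFunLike.congr_fun h1 h

theorem spin_emb (e : V ≃ₗ[F] U × W) (he : ∀ v, (QU.prod QW) (e v) = Q v) (hQ : (polarBilin Q).Nondegenerate) (hR : RGrp Q = ⊤)
    (hQU : (polarBilin QU).Nondegenerate) (hRU : RGrp QU = ⊤) (h : OGrp QU) : spinHom hQ hR (emb e he h) = spinHom hQU hRU h := by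
  have h1 : (spinHom hQ hR).comp (emb e he) = spinHom hQU hRU := by
    apply AutO.hom_ext_refl hRU
    intro v hv
    rw [MonoidHom.comp_apply, emb_refl e he hv (by rw [q_emb e he]; exact hv), spinHom_refl, spinHom_refl, q_emb e he]
  exact DFunLike.congr_fun h1 h

end emb

section det

open Cfsg.Agent.ClassSp (sf)

theorem sf_diag {l F : Type*} [Fintype l] [DecidableEq l] [Field F] (c : F) (x y : l ⊕ l → F) :
    sf ((Matrix.diagonal (Sum.elim (fun _ => c) (fun _ => 1))).mulVec x) ((Matrix.diagonal (Sum.elim (fun _ => c) (fun _ => 1))).mulVec y) = c * sf x y := by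
  simp only [sf, Matrix.mulVec_diagonal, Sum.elim_inl, Sum.elim_inr, Finset.mul_sum]
  refine Finset.sum_congr rfl fun i _ => ?_
  ring

/-- determinants of symplectic similarities -/
theorem det_gsp {F V : Type*} [Field F] [AddCommGroup V] [Module F V] [FiniteDimensional F V] (A : LinearMap.BilinForm F V)
    (hA : A.IsAlt) (hAn : A.Nondegenerate) {n : ℕ} (hV : finrank F V = 2 * n) (T : V →ₗ[F] V) {μ : F} (hμ : μ ≠ 0)
    (hT : ∀ x y, A (T x) (T y) = μ * A x y) : LinearMap.det T = μ ^ n := by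
  classical
  obtain ⟨k, e₁, f, b, h, he₁, hf, hk⟩ := Cfsg.Agent.Witt.exists_darboux A hA hAn
  obtain rfl : k = n := by omega
  have hsf := darboux_sf hA b h he₁ hf
  set M := LinearMap.toMatrix b b T with hM
  set D : Matrix (Fin k ⊕ Fin k) (Fin k ⊕ Fin k) F := Matrix.diagonal (Sum.elim (fun _ => μ⁻¹) (fun _ => 1)) with hD
  have hMv : ∀ w, M.mulVec (b.equivFun w) = b.equivFun (T w) := fun w => LinearMap.toMatrix_mulVec_repr b b T w
  have hmem : M * D ∈ Matrix.symplecticGroup (Fin k) F := by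
    rw [ClassSp.mem_symplectic_iff]
    intro u v
    rw [← Matrix.mulVec_mulVec, ← Matrix.mulVec_mulVec]
    obtain ⟨u', hu'⟩ := b.equivFun.surjective (D.mulVec u)
    obtain ⟨v', hv'⟩ := b.equivFun.surjective (D.mulVec v)
    rw [← hu', ← hv', hMv, hMv, hsf, hT, ← hsf, hu', hv', hD, sf_diag, mul_inv_cancel_left₀ hμ]
  have h1 := SymplecticGroup.det_eq_one hmem
  rw [Matrix.det_mul, hD, Matrix.det_diagonal, Fintype.prod_sum_type] at h1
  simp only [Sum.elim_inl, Sum.elim_inr, Finset.prod_const, Finset.card_univ, Fintype.card_fin, one_pow, mul_one] at h1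
  rw [← LinearMap.det_toMatrix b, ← hM]
  rw [inv_pow] at h1
  have h2 : μ ^ k ≠ 0 := pow_ne_zero _ hμ
  field_simp at h1
  exact h1

/-- determinants of similarities commuting with an isometry without eigenvalues `± 1` -/
theorem det_comm {F V : Type*} [Field F] [AddCommGroup V] [Module F V] [FiniteDimensional F V] {Q : QuadraticForm F V}
    (hQ : (polarBilin Q).Nondegenerate) {n : ℕ} (hV : finrank F V = 2 * n) {g : V ≃ₗ[F] V} (hg : ∀ x, Q (g x) = Q x)
    (hfix : ∀ x, g (g x) = x → x = 0) (s : V →ₗ[F] V) {μ : F} (hμ : μ ≠ 0) (hs : ∀ x, Q (s x) = μ * Q x) (hsg : ∀ x, s (g x) = g (s x)) :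
    LinearMap.det s = μ ^ n := by
  have hBa : ∀ x y, polarBilin Q x y = Q (x + y) - Q x - Q y := fun x y => rfl
  have hB : ∀ x y, polarBilin Q (g x) (g y) = polarBilin Q x y := by
    intro x y
    rw [hBa, hBa, ← map_add, hg, hg, hg]
  have hBs : ∀ x y, polarBilin Q (s x) (s y) = μ * polarBilin Q x y := by
    intro x y
    rw [hBa, hBa, ← map_add, hs, hs, hs]; ring
  have hsym : ∀ x y, polarBilin Q x y = polarBilin Q y x := by
    intro x y
    rw [hBa, hBa, add_comm]; ring
  have hsg' : ∀ x, s (g.symm x) = g.symm (s x) := by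
    intro x
    apply g.injective
    rw [g.apply_symm_apply, ← hsg, g.apply_symm_apply]
  let A : LinearMap.BilinForm F V := LinearMap.BilinForm.compLeft (polarBilin Q) ((g : V →ₗ[F] V) - (g.symm : V →ₗ[F] V))
  have hAa : ∀ x y, A x y = polarBilin Q (g x) y - polarBilin Q (g.symm x) y := by
    intro x y
    change polarBilin Q (g x - g.symm x) y = _
    rw [map_sub, LinearMap.sub_apply]
  apply det_gsp A _ _ hV s hμ
  · intro x y
    rw [hAa, hAa, ← hsg, ← hsg', hBs, hBs]; ring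
  · intro x
    rw [hAa, sub_eq_zero]
    rw [← hB (g.symm x) x, g.apply_symm_apply, hsym]
  · have key : ∀ x, (∀ y, A x y = 0) → x = 0 := by
      intro x hx
      apply hfix
      have h1 : g x - g.symm x = 0 := by
        apply hQ.1
        intro y
        exact hx y
      have h2 := congrArg g (sub_eq_zero.1 h1)
      rwa [g.apply_symm_apply] at h2
    have halt : A.IsAlt := by
      intro x
      rw [hAa, sub_eq_zero]
      rw [← hB (g.symm x) x, g.apply_symm_apply, hsym]
    refine ⟨key, fun x hx => key x fun y => ?_⟩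
    rw [← LinearMap.BilinForm.IsAlt.neg_eq halt, hx, neg_zero]

end det

section simi

open Cfsg.Agent.AutO Cfsg.Agent.SimO

variable {F : Type u} [Field F] [Fintype F] {V : Type u} [AddCommGroup V] [Module F V] [FiniteDimensional F V] {Q : QuadraticForm F V}

theorem sclL_comm (c : Fˣ) (l : LinS Q) : l * sclL Q c = sclL Q c * l := by
  apply Subtype.ext
  obtain ⟨d, hd⟩ := l.2
  have h := scl_comm c hd
  have h2 : Units.map (((1 : RingAut F) : F →+* F) : F →* F) c = c := Units.ext rfl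
  exact h

theorem ofL_injective : Function.Injective (ofL Q) := by
  intro g h hgh
  apply OGrp_ext
  intro v
  have h1 := congrArg (fun l : LinS Q => ((l : GamO Q) : Equiv.Perm V) v) hgh
  exact h1

/-- similarities commuting with an isometry of odd order -/
theorem comm_sim (hQ : (polarBilin Q).Nondegenerate) {r : ℕ} (hrF : (r : F) ≠ 0) (hodd : Odd r) {g : OGrp Q} (hg : g ^ r = 1) (s0 : LinS Q) :
    ∃ h : OGrp Q, ((ofL Q h)⁻¹ * s0) * ofL Q g = ofL Q g * ((ofL Q h)⁻¹ * s0) := by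
  set g' := conjO Q s0 g with hg'
  have hrel : s0 * ofL Q g = ofL Q g' * s0 := by
    rw [hg', ← conj_ofL, inv_mul_cancel_right]
  obtain ⟨h, hh1, hh2⟩ := conj_quad (N := r) hrF hodd hQ (g := (g : V ≃ₗ[F] V)) (g' := (g' : V ≃ₗ[F] V))
    (P := ((linE Q s0 : SimE Q) : V ≃ₗ[F] V)) (fun x => g.2 x) (fun x => g'.2 x) (congrArg Subtype.val hg) (by
      intro x
      have h1 := congrArg (fun l : LinS Q => ((l : GamO Q) : Equiv.Perm V) x) hrel
      exact h1)
  refine ⟨⟨h, hh1⟩, ?_⟩
  set k : OGrp Q := ⟨h, hh1⟩ with hk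
  have h3 : k * g = g' * k := by
    apply OGrp_ext
    intro x
    exact hh2 x
  have h4 : ofL Q g' = ofL Q k * ofL Q g * (ofL Q k)⁻¹ := by
    rw [← map_inv, ← map_mul, ← map_mul, h3, mul_inv_cancel_right]
  rw [mul_assoc, hrel, h4]
  group

end simi

section lemU

open Cfsg.Agent.AutO Cfsg.Agent.SimO

variable {F : Type u} [Field F] [Fintype F] {ι : Type} [Fintype ι] [DecidableEq ι] {Q : QuadraticForm F (ι → F)}

/-- an element of nontrivial spinor norm in the centraliser: from a similarity -/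
theorem exists_u (hQ : (polarBilin Q).Nondegenerate) (hR : RGrp Q = ⊤) (h2 : (2 : F) ≠ 0) {r : ℕ} (hrF : (r : F) ≠ 0) (hodd : Odd r)
    {k : ℕ} (hV : finrank F (ι → F) = 2 * k) {g : OGrp Q} (hg : g ^ r = 1)
    (hfix : ∀ x, (g : (ι → F) ≃ₗ[F] (ι → F)) ((g : (ι → F) ≃ₗ[F] (ι → F)) x) = x → x = 0) (s0 : LinS Q) {μ : Fˣ}
    (hs0 : IsSemi Q ((s0 : GamO Q) : Equiv.Perm (ι → F)) 1 μ) (hμ : ¬ IsSquare (μ : F))
    (hdet : dL Q s0 = μ ^ k) {c : Fˣ} {A0 : OGrp Q} (hA : s0 * s0 = sclL Q c * ofL Q A0)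
    (hA1 : parityHom hQ hR A0 = 1) (hA2 : spinHom hQ hR A0 = -1) :
    ∃ u : OGrp Q, u * g = g * u ∧ parityHom hQ hR u = 1 ∧ spinHom hQ hR u = -1 := by
  obtain ⟨h, hcomm⟩ := comm_sim hQ hrF hodd hg s0
  set s := (ofL Q h)⁻¹ * s0 with hs
  have hsemi : IsSemi Q ((s : GamO Q) : Equiv.Perm (ι → F)) 1 μ := by
    have h1 := IsSemi1.mul (IsSemi1.inv (isSemi_ofO h)) hs0
    rw [inv_one, one_mul] at h1
    exact h1
  have hdets : dL Q s = μ ^ k := by
    apply Units.ext
    rw [coe_dL, Units.val_pow_eq_pow_val]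
    apply det_comm hQ hV (g := (g : (ι → F) ≃ₗ[F] (ι → F))) (fun x => g.2 x) hfix _ μ.ne_zero
    · intro x
      exact hsemi.q x
    · intro x
      have h1 := congrArg (fun l : LinS Q => ((l : GamO Q) : Equiv.Perm (ι → F)) x) hcomm
      exact h1
  have hdeth : dL Q (ofL Q h) = 1 := by
    have h1 : s0 = ofL Q h * s := by rw [hs, mul_inv_cancel_left]
    rw [h1, map_mul, hdets] at hdet
    exact mul_eq_right.mp hdet
  have hpar : parityHom hQ hR h = 1 := by
    have h1 := det_parity hQ hR h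
    have h3 : LinearMap.det ((h : (ι → F) ≃ₗ[F] (ι → F)) : (ι → F) →ₗ[F] (ι → F)) = 1 := by
      have h4 := congrArg Units.val hdeth
      rw [coe_dL] at h4
      exact h4
    rw [h3] at h1
    rcases Int.units_eq_one_or (parityHom hQ hR h) with h5 | h5
    · exact h5
    · exfalso
      rw [h5] at h1
      apply h2
      simp at h1
      linear_combination h1
  have hss : s * s = sclL Q c * ofL Q (h⁻¹ * conjO Q s0 h⁻¹ * A0) := by
    have h1 : s * s = (ofL Q h)⁻¹ * (s0 * (ofL Q h)⁻¹ * s0⁻¹) * (s0 * s0) := by rw [hs]; group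
    rw [h1, hA, ← map_inv, conj_ofL, ← map_mul, ← mul_assoc, sclL_comm, mul_assoc, ← map_mul]
  refine ⟨h⁻¹ * conjO Q s0 h⁻¹ * A0, ?_, ?_, ?_⟩
  · apply ofL_injective
    rw [map_mul (ofL Q) _ g, map_mul (ofL Q) g]
    have h1 : ofL Q (h⁻¹ * conjO Q s0 h⁻¹ * A0) = (sclL Q c)⁻¹ * (s * s) := by
      rw [hss, inv_mul_cancel_left]
    have h3 : (sclL Q c)⁻¹ * ofL Q g = ofL Q g * (sclL Q c)⁻¹ := by
      rw [eq_mul_inv_iff_mul_eq, mul_assoc, sclL_comm, inv_mul_cancel_left]
    rw [h1]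
    calc (sclL Q c)⁻¹ * (s * s) * ofL Q g = (sclL Q c)⁻¹ * (s * (s * ofL Q g)) := by group
      _ = (sclL Q c)⁻¹ * (s * (ofL Q g * s)) := by rw [hcomm]
      _ = (sclL Q c)⁻¹ * ((s * ofL Q g) * s) := by group
      _ = (sclL Q c)⁻¹ * ((ofL Q g * s) * s) := by rw [hcomm]
      _ = ((sclL Q c)⁻¹ * ofL Q g) * (s * s) := by group
      _ = (ofL Q g * (sclL Q c)⁻¹) * (s * s) := by rw [h3]
      _ = _ := by group
  · rw [map_mul, map_mul, parity_conj, map_inv, hpar, hA1]; rfl
  · rw [map_mul, map_mul, spin_conj' hQ hR hs0 hμ, map_inv, map_inv, hpar, hA2]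
    rcases Int.units_eq_one_or (spinHom hQ hR h) with h5 | h5 <;> rw [h5] <;> rfl

end lemU

end Cfsg.Agent.Iso44.Fus
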