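import Cfsg.Agent.Iso44.Fus

/-!
Blocks with centralising elements of nontrivial spinor norm.
-/

set_option autoImplicit false

universe u

namespace Cfsg.Agent.Iso44.Fus

open QuadraticMap Module
open Cfsg.Agent.Orth hiding two_ne_zero_of_odd map_mul
open Cfsg.Agent.AutO Cfsg.Agent.SimO

theorem block_u {F : Type u} [Field F] [Fintype F] (h2 : (2 : F) ≠ 0) {r : ℕ} [hr : Fact r.Prime] (hrF : (r : F) ≠ 0) (hodd : Odd r)
    (ψ : AddChar F ℂ) (hψ : ψ.IsPrimitive) {q : ℕ} (hq : Nat.card F = q) {k : ℕ} (hk : 1 ≤ k) {ε : ℂ}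
    (hε : (ε = 1 ∧ (q : ZMod r) ^ k = 1 ∧ Odd k) ∨ (ε = -1 ∧ (q : ZMod r) ^ k = -1)) :
    ∃ (ι : Type) (_ : Fintype ι) (_ : DecidableEq ι) (Q : QuadraticForm F (ι → F)),
      finrank F (ι → F) = 2 * k ∧ (polarBilin Q).Nondegenerate ∧ ga ψ Q = ε * (Nat.card F : ℂ) ^ k ∧
        (∃ g ∈ OGrp Q, g ^ r = 1 ∧ g ≠ 1) ∧
        ∀ (hQ : (polarBilin Q).Nondegenerate) (hR : RGrp Q = ⊤) (g : OGrp Q), g ^ r = 1 →
          (∀ x, (g : (ι → F) ≃ₗ[F] (ι → F)) ((g : (ι → F) ≃ₗ[F] (ι → F)) x) = x → x = 0) →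
          ∃ u : OGrp Q, u * g = g * u ∧ parityHom hQ hR u = 1 ∧ spinHom hQ hR u = -1 := by
  classical
  have hq0 : 0 < q := by rw [← hq]; exact Nat.card_pos
  obtain ⟨c, hc⟩ := FiniteField.exists_nonsquare (F := F) (by
    intro h
    have : CharP F 2 := by
      rw [← h]; exact ringChar.charP F
    exact h2 (CharTwo.two_eq_zero))
  have hc0 : c ≠ 0 := by
    rintro rfl
    exact hc IsSquare.zero
  set μ : Fˣ := Units.mk0 c hc0 with hμ
  have hμs : ¬ IsSquare (μ : F) := hc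
  have hsq : sqc (μ : F) = -1 := if_neg hμs
  rcases hε with ⟨rfl, h, hko⟩ | ⟨rfl, h⟩
  · refine ⟨Fin k ⊕ Fin k, inferInstance, inferInstance, qfPlus k F, finrank_V k F, qfPlus_nondegenerate k F, ?_, ?_, ?_⟩
    · rw [ga_plus ψ hψ, one_mul]
    · apply o_elt
      rw [coe_qfPlus, OrthCount.order_plus k hk, hq]
      exact Dvd.dvd.mul_right (Dvd.dvd.mul_left (dvd_pow_sub_one hq0 h) _) _
    · intro hQ hR g hg hfix
      refine exists_u hQ hR h2 hrF hodd (finrank_V k F) hg hfix (dlt k μ) (semi_dlt μ) hμs (dL_dlt μ) (dlt_mul μ) (OAut.parity_hd hQ hR _) ?_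
      rw [OAut.spin_hd, Finset.prod_const, Finset.card_univ, Fintype.card_fin, Units.val_pow_eq_pow_val, sqc_pow μ.ne_zero, hsq,
        hko.neg_one_pow]
  · obtain ⟨z, hz⟩ := exists_zeta_elliptic (F := F)
    obtain ⟨m', rfl⟩ : ∃ m', k = m' + 1 := ⟨k - 1, by omega⟩
    have hfin : finrank F ((Fin m' ⊕ Fin m') ⊕ Fin 2 → F) = 2 * (m' + 1) := by
      rw [finrank_fintype_fun_eq_card, Fintype.card_sum, Fintype.card_sum, Fintype.card_fin, Fintype.card_fin]; ring
    refine ⟨(Fin m' ⊕ Fin m') ⊕ Fin 2, inferInstance, inferInstance, qfMinus m' F 1 z, hfin,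
      qfMinus_nondegenerate m' F (disc_ne_zero_of_aniso (aniso_of_root hz)), ?_, ?_, ?_⟩
    · rw [ga_minus ψ hψ m' (aniso_of_root hz)]; ring
    · apply o_elt
      rw [coe_qfMinus, OrthCount.order_minus m' (OrthCount.aniso_of (aniso_of_root hz)), hq]
      refine Dvd.dvd.mul_right (Dvd.dvd.mul_left ?_ _) _
      rw [← ZMod.natCast_eq_zero_iff]
      push_cast
      rw [h]; ring
    · intro hQ hR g hg hfix
      haveI hfact : Fact (∀ r : F, r ^ 2 ≠ -z + 1 * r) := fact_of_aniso (aniso_of_root hz)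
      rcases Nat.even_or_odd m' with hm | hm
      · -- `k` odd
        obtain ⟨p, hp⟩ := CharP.exists F
        haveI hpp : Fact p.Prime := ⟨CharP.char_is_prime F p⟩
        obtain ⟨κ, hκ⟩ := exists_nu (a := (1 : F)) (b := z) μ
        obtain ⟨A, hA1, hA2, hA3⟩ := exists_A (m := m') p hQ hR κ
        refine exists_u hQ hR h2 hrF hodd hfin hg hfix (gL p m' κ) (μ := nu κ) (semi_gL p κ) (by rw [hκ]; exact hμs) (dL_gL p κ)
          (c := nu κ) (A0 := A) ?_ hA2 ?_
        · refine Subtype.ext ?_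
          change gK p m' κ 0 * gK p m' κ 0 = scl _ (nu κ) * ofO _ A
          rw [← hA1, gK_mul, pow_zero, pow_one, add_zero, pow_two]
        · rw [hA3, hκ, hsq, hm.add_one.neg_one_pow]
      · refine ⟨nO _, ?_, (nO_minus hQ hR).1, ?_⟩
        · apply OGrp_ext
          intro v
          rw [coe_mul_apply, coe_mul_apply, nO_apply, nO_apply, map_neg]
        · have hns := disc_nonsquare (a := (1 : F)) (b := z) h2
          have h0 : (4 * z - 1 ^ 2 : F) ≠ 0 := by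
            intro h0
            apply hns
            rw [show (1 ^ 2 - 4 * z : F) = 0 by linear_combination -h0]
            exact IsSquare.zero
          obtain ⟨j, rfl⟩ := hm
          have h1 : sqc (-1 : F) ^ (2 * j + 1) = sqc (-1 : F) := by
            rcases Int.units_eq_one_or (sqc (-1 : F)) with h3 | h3
            · rw [h3, one_pow]
            · rw [h3, Odd.neg_one_pow ⟨j, rfl⟩]
          rw [(nO_minus hQ hR).2, h1, ← sqc_mul (neg_ne_zero.2 one_ne_zero) h0, show (-1 * (4 * z - 1 ^ 2) : F) = 1 ^ 2 - 4 * z by ring]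
          exact if_neg hns

/-- no fixed points -/
theorem hfix_of_mult {E : Type*} [Field E] [IsAlgClosed E] {F : Type u} [Field F] [Finite F] [Algebra F E] {r : ℕ} [hr : Fact r.Prime] {ζ : E}
    (hζ : IsPrimitiveRoot ζ r) (hodd : Odd r) {V : Type*} [AddCommGroup V] [Module F V] [FiniteDimensional F V] {g : V ≃ₗ[F] V} (hg : g ^ r = 1)
    (h0 : mult ζ (g : End F V) (0 : ZMod r) = 0) (x : V) (hx : g (g x) = x) : x = 0 := by
  have h1 : ∀ j : ℕ, (g ^ (2 * j)) x = x := by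
    intro j
    induction j with
    | zero => rw [mul_zero, pow_zero]; rfl
    | succ j ih =>
      rw [mul_add, mul_one, pow_add]
      show (g ^ (2 * j)) ((g ^ 2) x) = x
      have h2 : (g ^ 2) x = x := by rw [pow_two]; exact hx
      rw [h2, ih]
  obtain ⟨j, hj⟩ := hodd
  have h2 : g x = x := by
    have h3 : (g ^ r) x = x := by rw [hg]; rfl
    rw [hj, pow_succ'] at h3
    have h4 : g ((g ^ (2 * j)) x) = x := h3
    rwa [h1] at h4
  have hinj : Function.Injective (((g : End F V) - (1 : End F V) : End F V)) := by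
    apply LinearMap.injective_iff_surjective.mpr
    intro v
    obtain ⟨u, hu⟩ := surj_of_mult hζ g h0 v
    exact ⟨u, hu⟩
  apply hinj
  rw [map_zero]
  show g x - x = 0
  rw [h2, sub_self]

section main

variable {r : ℕ} [hr : Fact r.Prime] {E : Type*} [Field E] {F : Type u} [Field F] [Fintype F] [Algebra F E]
variable {ζ : E} (hζ : IsPrimitiveRoot ζ r) [IsAlgClosed E]

include hζ

/-- conjugation to a model -/
theorem transfer {V : Type u} [AddCommGroup V] [Module F V] [FiniteDimensional F V] {Q : QuadraticForm F V} (hQ : (polarBilin Q).Nondegenerate)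
    (hrF : (r : F) ≠ 0) (hodd : Odd r) {g g' : OGrp Q} (hg : g ^ r = 1) (hg' : g' ^ r = 1)
    (hm : (mult ζ ((g : V ≃ₗ[F] V) : End F V) : ZMod r → ℕ) = mult ζ ((g' : V ≃ₗ[F] V) : End F V)) : ∃ h : OGrp Q, h * g = g' * h := by
  obtain ⟨P, hP⟩ := exists_P hζ (g : V ≃ₗ[F] V) (g' : V ≃ₗ[F] V) (congrArg Subtype.val hg) (congrArg Subtype.val hg') hm
  obtain ⟨h, hh1, hh2⟩ := conj_quad (N := r) hrF hodd hQ (g := (g : V ≃ₗ[F] V)) (g' := (g' : V ≃ₗ[F] V)) (P := P) (fun x => g.2 x) (fun x => g'.2 x)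
    (congrArg Subtype.val hg) hP
  exact ⟨⟨h, hh1⟩, OGrp_ext fun x => hh2 x⟩

omit hr [IsAlgClosed E] hζ in
/-- gluing of commuting elements -/
theorem glue_comm {V U W : Type u} [AddCommGroup V] [Module F V] [AddCommGroup U] [Module F U]
    [AddCommGroup W] [Module F W] {Q : QuadraticForm F V} {QU : QuadraticForm F U} {QW : QuadraticForm F W}
    (e : V ≃ₗ[F] U × W) (he : ∀ v, (QU.prod QW) (e v) = Q v) {u g : OGrp QU} (hug : u * g = g * u) {g' : W ≃ₗ[F] W}
    (k : OGrp Q) (hk : ∀ v, (k : V ≃ₗ[F] V) v = e.symm ((g : U ≃ₗ[F] U) (e v).1, g' (e v).2)) : emb e he u * k = k * emb e he u := by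
  apply OGrp_ext
  intro v
  rw [coe_mul_apply, coe_mul_apply, emb_apply, hk, hk, emb_apply]
  have h1 : (u : U ≃ₗ[F] U) ((g : U ≃ₗ[F] U) (e v).1) = (g : U ≃ₗ[F] U) ((u : U ≃ₗ[F] U) (e v).1) := by
    have := congrArg (fun f : OGrp QU => (f : U ≃ₗ[F] U) (e v).1) hug
    exact this
  simp only [e.apply_symm_apply]
  rw [h1]

/-- gluing with an explicit formula -/
theorem glue' {V U W : Type u} [AddCommGroup V] [Module F V] [FiniteDimensional F V] [AddCommGroup U] [Module F U] [FiniteDimensional F U]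
    [AddCommGroup W] [Module F W] [FiniteDimensional F W] {Q : QuadraticForm F V} {QU : QuadraticForm F U} {QW : QuadraticForm F W}
    (e : V ≃ₗ[F] U × W) (he : ∀ v, (QU.prod QW) (e v) = Q v) {g : U ≃ₗ[F] U} {g' : W ≃ₗ[F] W} (hg : g ∈ OGrp QU) (hg' : g' ∈ OGrp QW)
    (hgr : g ^ r = 1) (hgr' : g' ^ r = 1) :
    ∃ h : OGrp Q, h ^ r = 1 ∧ (mult ζ ((h : V ≃ₗ[F] V) : End F V) : ZMod r → ℕ) = mult ζ (g : End F U) + mult ζ (g' : End F W) ∧
      ∀ v, (h : V ≃ₗ[F] V) v = e.symm (g (e v).1, g' (e v).2) := by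
  have hg2 : ∀ x, QU (g x) = QU x := hg
  have hg2' : ∀ x, QW (g' x) = QW x := hg'
  refine ⟨⟨(e.trans (g.prodCongr g')).trans e.symm, ?_⟩, ?_, ?_, ?_⟩
  · intro x
    rw [← he, ← he]
    simp only [LinearEquiv.trans_apply, e.apply_symm_apply]
    rw [QuadraticMap.prod_apply, QuadraticMap.prod_apply, LinearEquiv.prodCongr_apply, hg2, hg2']
  · apply Subtype.ext
    change ((e.trans (g.prodCongr g')).trans e.symm) ^ r = 1
    have h1 : ∀ j : ℕ, ((e.trans (g.prodCongr g')).trans e.symm) ^ j = (e.trans ((g ^ j).prodCongr (g' ^ j))).trans e.symm := by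
      intro j
      induction j with
      | zero => ext x; simp [LinearEquiv.prodCongr_apply]
      | succ j ihj =>
        rw [pow_succ, ihj, pow_succ, pow_succ]
        ext x
        simp [LinearEquiv.prodCongr_apply, LinearEquiv.mul_apply]
    rw [h1, hgr, hgr']
    ext x
    simp [LinearEquiv.prodCongr_apply]
  · have h1 : (((e.trans (g.prodCongr g')).trans e.symm : V ≃ₗ[F] V) : End F V) =
        e.symm.conj (LinearMap.prodMap (g : End F U) (g' : End F W)) := by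
      apply LinearMap.ext
      intro x
      rfl
    change mult ζ (((e.trans (g.prodCongr g')).trans e.symm : V ≃ₗ[F] V) : End F V) = _
    rw [h1, mult_conj, mult_prodMap]
  · intro v
    rfl

omit hζ [IsAlgClosed E] [Algebra F E] [Fintype F] [Field F] hr [Field E] in
theorem conj_back {G : Type*} [Group G] {u k g h : G} (h1 : h * g = k * h) (h2 : u * k = k * u) :
    (h⁻¹ * u * h) * g = g * (h⁻¹ * u * h) := by
  have h3 : g = h⁻¹ * k * h := by rw [mul_assoc, ← h1, inv_mul_cancel_left]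
  rw [h3]
  calc h⁻¹ * u * h * (h⁻¹ * k * h) = h⁻¹ * (u * k) * h := by group
    _ = h⁻¹ * (k * u) * h := by rw [h2]
    _ = _ := by group

omit hζ [IsAlgClosed E] [Algebra F E] [Fintype F] [Field F] hr [Field E] in
theorem units_conj (a b : ℤˣ) : a⁻¹ * b * a = b := by
  rw [mul_comm a⁻¹ b, inv_mul_cancel_right]

/-- centralising elements -/
theorem exists_uV (h2 : (2 : F) ≠ 0) (hr2 : r ≠ 2) (hrF : (r : F) ≠ 0) (ψ : AddChar F ℂ) (hψ : ψ.IsPrimitive) {q : ℕ} (hq : Nat.card F = q)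
    (hqr : (q : ZMod r) ≠ 0) {V : Type u} [AddCommGroup V] [Module F V] [FiniteDimensional F V] {Q : QuadraticForm F V}
    (hQ : (polarBilin Q).Nondegenerate) (hR : RGrp Q = ⊤) {m : ℕ} (hV : finrank F V = 2 * m) (hm : 1 ≤ m) {τ : ℂ} (hτ : τ * τ = 1)
    (hga : ga ψ Q = τ * (Nat.card F : ℂ) ^ m) {g : OGrp Q} (hg : g ^ r = 1) :
    (∃ u : OGrp Q, u * g = g * u ∧ parityHom hQ hR u = 1 ∧ spinHom hQ hR u = -1) ∧
      ((∃ ρ : OGrp Q, ρ * g = g * ρ ∧ parityHom hQ hR ρ = -1) ∨ mult ζ ((g : V ≃ₗ[F] V) : End F V) (0 : ZMod r) = 0) := by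
  classical
  have hodd : Odd r := hr.out.odd_of_ne_two hr2
  obtain ⟨w, hw, hwo⟩ := exists_w hr2 hqr
  have hi0 : 0 < orderOf (q : ZMod r) := by
    rw [orderOf_pos_iff]
    exact isOfFinOrder_iff_pow_eq_one.mpr ⟨r - 1, Nat.sub_pos_of_lt hr.out.one_lt, ZMod.pow_card_sub_one_eq_one hqr⟩
  obtain ⟨k, ε, hk, hε⟩ : ∃ (k : ℕ) (ε : ℂ), orderOf w = 2 * k ∧ ((ε = 1 ∧ (q : ZMod r) ^ k = 1 ∧ Odd k) ∨ (ε = -1 ∧ (q : ZMod r) ^ k = -1)) := by
    split_ifs at hwo with h
    · exact ⟨orderOf (q : ZMod r), 1, hwo, Or.inl ⟨rfl, pow_orderOf_eq_one _, h⟩⟩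
    · have h' := h
      rw [Nat.not_odd_iff_even] at h'
      obtain ⟨k, hk⟩ := h'
      refine ⟨k, -1, by omega, Or.inr ⟨rfl, ?_⟩⟩
      have h1 : orderOf (Units.mk0 (q : ZMod r) hqr) = 2 * k := by
        rw [← orderOf_units, Units.val_mk0, hk]; ring
      have h2 := pow_half (by omega) h1
      have h3 := congrArg Units.val h2
      rw [Units.val_pow_eq_pow_val, Units.val_mk0] at h3
      exact h3
  have hk0 : 1 ≤ k := by
    have := orderOf_pos w
    omega
  have hεε : ε * ε = 1 := by rcases hε with ⟨h, _⟩ | ⟨h, _⟩ <;> rw [h] <;> norm_num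
  have hb : Nat.card (Subgroup.zpowers w) = 2 * k := by rw [Nat.card_zpowers, hk]
  obtain ⟨ι, _, _, QU, hU, hQU, hgU, ⟨g0, hg0, hgr0, hg01⟩, hblock⟩ := block_u h2 hrF hodd ψ hψ hq hk0 hε
  have hq1 : (Nat.card F : ℂ) ^ m ≠ 0 := pow_ne_zero _ (Nat.cast_ne_zero.2 Nat.card_pos.ne')
  have hgr : (g : V ≃ₗ[F] V) ^ r = 1 := congrArg Subtype.val hg
  obtain ⟨x, a, hxa⟩ := exists_T _ (inv_isom hζ (polarBilin Q) hQ hq hqr hw (g : V ≃ₗ[F] V) (isom_pres g.2) hgr)
  have hs := sum_mult hζ ((g : V ≃ₗ[F] V) : End F V) (coe_pow_one hgr)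
  rw [hxa, sum_T, hV, hb] at hs
  set S := ∑ c, a c with hS
  have hx0' : mult ζ ((g : V ≃ₗ[F] V) : End F V) (0 : ZMod r) = x := by rw [hxa, T_zero]
  have hRU := RGrp_top_of_two hQU h2
  rcases Nat.eq_zero_or_pos x with hx | hx
  · refine ⟨?_, Or.inr (by rw [hx0', hx])⟩
    subst hx
    obtain ⟨S', hS'1, hS'2⟩ := o_obs hζ hr2 ψ hψ hq hqr hw hk hU hQU hεε hgU hg0 hgr0 hg01 hQ hV g.2 hgr hx0'
    have hSS : S' = S := by
      have h5 : k * S' = k * S := by
        have h6 : 2 * (k * S) = 2 * m := by rw [← hs]; ring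
        omega
      exact Nat.eq_of_mul_eq_mul_left (by omega) h5
    rw [hSS] at hS'1 hS'2
    clear hSS
    have hτS : τ = ε ^ S := by
      rw [hga] at hS'2
      exact mul_right_cancel₀ hq1 hS'2
    have hSpos : 0 < S := by
      rcases Nat.eq_zero_or_pos S with h | h
      · rw [h, mul_zero] at hS'1; omega
      · exact h
    obtain ⟨c, -, hc⟩ : ∃ c ∈ Finset.univ, a c ≠ 0 := by
      apply Finset.exists_ne_zero_of_sum_ne_zero
      rw [← hS]; omega
    set a' : (ZMod r)ˣ ⧸ Subgroup.zpowers w → ℕ := fun d => a d - (Pi.single c 1 : _ → ℕ) d with ha'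
    have haa : a = Pi.single c 1 + a' := by
      funext d
      rw [Pi.add_apply, ha']
      by_cases hd : d = c
      · subst hd; simp only [Pi.single_eq_same]; omega
      · simp only [Pi.single_eq_of_ne hd]; omega
    have hS1 : ∑ d, a' d = S - 1 := by
      have h1 : ∑ d, a d = ∑ d, (Pi.single c 1 : _ → ℕ) d + ∑ d, a' d := by
        rw [← Finset.sum_add_distrib]
        exact Finset.sum_congr rfl fun d _ => congrFun haa d
      rw [← hS, Finset.sum_pi_single' c 1 Finset.univ, if_pos (Finset.mem_univ _)] at h1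
      omega
    obtain ⟨S₁, hS₁⟩ : ∃ S₁, S = S₁ + 1 := ⟨S - 1, by omega⟩
    clear_value S
    subst hS₁
    have hmk : m - k = k * S₁ := by rw [hS'1, mul_add, mul_one]; omega
    have hkm : k ≤ m := by rw [hS'1]; exact Nat.le_mul_of_pos_right _ (by omega)
    have hτε : ε ^ S₁ = 1 ∨ (ε ^ S₁ = -1 ∧ 1 ≤ m - k) := by
      have h1 : (ε ^ S₁) ^ 2 = 1 := by rw [← pow_mul, mul_comm, pow_mul, pow_two, hεε, one_pow]
      rcases sq_eq_one_iff.1 h1 with h | h
      · exact Or.inl h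
      · refine Or.inr ⟨h, ?_⟩
        rw [hmk]
        rcases Nat.eq_zero_or_pos S₁ with h3 | h3
        · rw [h3, pow_zero] at h
          norm_num at h
        · exact Nat.mul_pos (by omega) h3
    obtain ⟨W, _, _, _, QW, hW, hQW, hgW⟩ := exists_space ψ hψ (m - k) hτε
    obtain ⟨g', hg', hgr', hm'⟩ := o_real hζ ψ hψ hq hqr hw hk hU hQU hεε hgU hg0 hgr0 hg01 S₁ W QW (m - k) 0 a' (ε ^ S₁) hQW hW
      (by rw [← mul_pow, hεε, one_pow]) hgW (by rw [hS1]; omega) (by rw [hmk]; ring) (fun _ => rfl)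
    have hinv0 := inv_isom hζ (polarBilin QU) hQU hq hqr hw g0 (isom_pres hg0) hgr0
    obtain ⟨l, hl⟩ := block hζ (Subgroup.zpowers w) (g0 : End F (ι → F)) (coe_pow_one hgr0) (by
      intro h
      apply hg01
      ext x
      exact congrFun (congrArg (fun f : End F (ι → F) => f x) h) _) (by rw [hU, hb]) hinv0 c
    obtain ⟨e, he⟩ := isom_of_ga ψ hψ (m := m) hV (W := (ι → F) × W) (by rw [finrank_prod, hU, hW]; omega) hQ (prod_nondeg hQU hQW) (by
      rw [ga_prod', hga, hgU, hgW, hτS]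
      have h5 : (Nat.card F : ℂ) ^ m = (Nat.card F : ℂ) ^ k * (Nat.card F : ℂ) ^ (m - k) := by
        rw [← pow_add]; congr 1; omega
      rw [h5, pow_succ]
      ring)
    have hgbr : (g0 ^ l) ^ r = 1 := by rw [← pow_mul, mul_comm, pow_mul, hgr0, one_pow]
    have hgb : g0 ^ l ∈ OGrp QU := pow_mem hg0 l
    obtain ⟨kk, hkk1, hkk2, hkk3⟩ := glue' (r := r) hζ e he (g := g0 ^ l) hgb hg' hgbr hgr'
    have hmb : (mult ζ ((g0 ^ l : (ι → F) ≃ₗ[F] (ι → F)) : End F (ι → F)) : ZMod r → ℕ) = T (Subgroup.zpowers w) 0 (Pi.single c 1) := by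
      rw [coe_pow_equiv, hl]
    obtain ⟨h, hh⟩ := transfer hζ hQ hrF hodd hg hkk1 (by
      rw [hkk2, hmb, hm', T_add, zero_add, ← haa, hxa])
    obtain ⟨u, hu1, hu2, hu3⟩ := hblock hQU hRU ⟨g0 ^ l, hgb⟩ (Subtype.ext hgbr) (fun y hy => hfix_of_mult hζ hodd (g := g0 ^ l) hgbr (by
      rw [hmb, T_zero]) y hy)
    have hcomm := glue_comm e he (u := u) (g := ⟨g0 ^ l, hgb⟩) hu1 (g' := g') kk hkk3
    refine ⟨h⁻¹ * emb e he u * h, conj_back hh hcomm, ?_, ?_⟩
    · rw [map_mul, map_mul, map_inv, units_conj, parity_emb e he hQ hR hQU hRU, hu2]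
    · rw [map_mul, map_mul, map_inv, units_conj, spin_emb e he hQ hR hQU hRU, hu3]
  · -- there are fixed vectors
    have hx2 : 2 ≤ x := by
      have h1 : 2 * k * S = 2 * (k * S) := by ring
      omega
    obtain ⟨δ, hδδ, hδ1, hδ2⟩ : ∃ δ : ℂ, δ * δ = 1 ∧ (x - 2 = 0 → τ * δ = ε ^ S) ∧ (x - 2 ≠ 0 → τ * δ = 1) := by
      by_cases h : x - 2 = 0
      · refine ⟨τ * ε ^ S, ?_, fun _ => by rw [← mul_assoc, hτ, one_mul], fun h' => absurd h h'⟩
        have : ε ^ S * ε ^ S = 1 := by rw [← mul_pow, hεε, one_pow]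
        linear_combination (ε ^ S * ε ^ S) * hτ + this
      · exact ⟨τ, hτ, fun h' => absurd h' h, fun _ => hτ⟩
    have hmx : x - 2 + 2 * k * S = 2 * (m - 1) := by omega
    have hδ' : δ = 1 ∨ (δ = -1 ∧ 1 ≤ 1) := by
      have h1 : δ ^ 2 = 1 := by rw [pow_two, hδδ]
      rcases sq_eq_one_iff.1 h1 with h | h
      · exact Or.inl h
      · exact Or.inr ⟨h, le_rfl⟩
    have hτδ : τ * δ = 1 ∨ (τ * δ = -1 ∧ 1 ≤ m - 1) := by
      have h1 : (τ * δ) ^ 2 = 1 := by linear_combination (δ * δ) * hτ + hδδ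
      rcases sq_eq_one_iff.1 h1 with h | h
      · exact Or.inl h
      · refine Or.inr ⟨h, ?_⟩
        by_contra hc
        have hm1 : m - 1 = 0 := by omega
        have hx2' : x - 2 = 0 := by omega
        have hS0 : S = 0 := by
          rcases Nat.eq_zero_or_pos S with h3 | h3
          · exact h3
          · have : 2 * k * 1 ≤ 2 * k * S := Nat.mul_le_mul_left _ h3
            omega
        have h4 := hδ1 hx2'
        rw [hS0, pow_zero, h] at h4
        norm_num at h4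
    obtain ⟨U₂, _, _, _, QU₂, hU₂, hQU₂, hgU₂⟩ := exists_space ψ hψ 1 hδ'
    obtain ⟨W, _, _, _, QW, hW, hQW, hgW⟩ := exists_space ψ hψ (m - 1) hτδ
    obtain ⟨g', hg', hgr', hm'⟩ := o_real hζ ψ hψ hq hqr hw hk hU hQU hεε hgU hg0 hgr0 hg01 S W QW (m - 1) (x - 2) a (τ * δ) hQW hW
      (by linear_combination (δ * δ) * hτ + hδδ) hgW rfl hmx hδ1
    obtain ⟨e, he⟩ := isom_of_ga ψ hψ (m := m) hV (W := U₂ × W) (by rw [finrank_prod, hU₂, hW]; omega) hQ (prod_nondeg hQU₂ hQW) (by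
      rw [ga_prod', hga, hgU₂, hgW]
      have h5 : (Nat.card F : ℂ) ^ m = (Nat.card F : ℂ) ^ 1 * (Nat.card F : ℂ) ^ (m - 1) := by
        rw [← pow_add]; congr 1; omega
      rw [h5]
      linear_combination (-(τ * (Nat.card F : ℂ) ^ 1 * (Nat.card F : ℂ) ^ (m - 1))) * hδδ)
    obtain ⟨kk, hkk1, hkk2, hkk3⟩ := glue' (r := r) hζ e he (g := (1 : U₂ ≃ₗ[F] U₂)) (one_mem _) hg' (one_pow _) hgr'
    have h1 := mult_one_eq (K := F) (V := U₂) hζ (Subgroup.zpowers w)
    rw [hU₂] at h1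
    obtain ⟨h, hh⟩ := transfer hζ hQ hrF hodd hg hkk1 (by
      rw [hkk2]
      have h3 : (mult ζ (((1 : U₂ ≃ₗ[F] U₂) : End F U₂)) : ZMod r → ℕ) = T (Subgroup.zpowers w) (2 * 1) 0 := h1
      rw [h3, hm', T_add, zero_add, hxa, show 2 * 1 + (x - 2) = x by omega])
    have hRU₂ := RGrp_top_of_two hQU₂ h2
    obtain ⟨v, hv⟩ := exists_q_eq hQU₂ (by rw [hU₂]) (1 : F)
    obtain ⟨c, hc⟩ := FiniteField.exists_nonsquare (F := F) (by
      intro h
      have : CharP F 2 := by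
        rw [← h]; exact ringChar.charP F
      exact h2 (CharTwo.two_eq_zero))
    obtain ⟨v', hv'⟩ := exists_q_eq hQU₂ (by rw [hU₂]) c
    have hv0 : QU₂ v ≠ 0 := by rw [hv]; exact one_ne_zero
    have hv0' : QU₂ v' ≠ 0 := by
      rw [hv']; rintro rfl; exact hc IsSquare.zero
    refine ⟨?_, Or.inl ?_⟩
    · have hcomm := glue_comm e he (u := refl QU₂ v hv0 * refl QU₂ v' hv0') (g := (1 : OGrp QU₂)) (by rw [mul_one, one_mul]) (g' := g') kk hkk3
      refine ⟨h⁻¹ * emb e he (refl QU₂ v hv0 * refl QU₂ v' hv0') * h, conj_back hh hcomm, ?_, ?_⟩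
      · rw [map_mul, map_mul, map_inv, units_conj, parity_emb e he hQ hR hQU₂ hRU₂, map_mul, parityHom_refl, parityHom_refl]; rfl
      · rw [map_mul, map_mul, map_inv, units_conj, spin_emb e he hQ hR hQU₂ hRU₂, map_mul, spinHom_refl, spinHom_refl, hv, hv',
          sqc, sqc, if_pos IsSquare.one, if_neg hc]; rfl
    · have hcomm := glue_comm e he (u := refl QU₂ v hv0) (g := (1 : OGrp QU₂)) (by rw [mul_one, one_mul]) (g' := g') kk hkk3
      refine ⟨h⁻¹ * emb e he (refl QU₂ v hv0) * h, conj_back hh hcomm, ?_⟩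
      rw [map_mul, map_mul, map_inv, units_conj, parity_emb e he hQ hR hQU₂ hRU₂, parityHom_refl]

end main

end Cfsg.Agent.Iso44.Fus
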