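import Cfsg.Agent.Iso44.Fus2

/-!
Fusion of elements of odd prime order in the automorphism groups of the orthogonal groups.
-/

set_option autoImplicit false

universe u

namespace Cfsg.Agent.Iso44.Fus

open QuadraticMap Module
open Cfsg.Agent.Orth hiding two_ne_zero_of_odd map_mul
open Cfsg.Agent.AutO Cfsg.Agent.SimO

theorem conj_of {X : Type*} [Group X] {H K : Subgroup X} {x y : X} (h : ∀ k ∈ H, ∃ c : X, c * x = x * c ∧ k * c ∈ K)
    (hxy : Cfsg.IsConjUnder H x y) : Cfsg.IsConjUnder K x y := by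
  obtain ⟨k, hk, rfl⟩ := hxy
  obtain ⟨c, hc, hkc⟩ := h k hk
  refine ⟨k * c, hkc, ?_⟩
  rw [mul_assoc k c x, hc]
  group

theorem conj_mono {X : Type*} [Group X] {H K : Subgroup X} {x y : X} (h : H ≤ K) (hxy : Cfsg.IsConjUnder H x y) : Cfsg.IsConjUnder K x y := by
  obtain ⟨k, hk, rfl⟩ := hxy
  exact ⟨k, h hk, rfl⟩

theorem conj_transport {X B : Type*} [Group X] [Group B] (e : X ≃* B) {H : Subgroup X} {H' : Subgroup B}
    (hH : ∀ x, x ∈ H ↔ e x ∈ H') (x y : X) : Cfsg.IsConjUnder H x y ↔ Cfsg.IsConjUnder H' (e x) (e y) := by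
  constructor
  · rintro ⟨k, hk, rfl⟩
    exact ⟨e k, (hH k).1 hk, by rw [map_mul, map_mul, map_inv]⟩
  · rintro ⟨k, hk, h⟩
    refine ⟨e.symm k, (hH _).2 (by rwa [e.apply_symm_apply]), ?_⟩
    apply e.injective
    rw [h, map_mul, map_mul, map_inv, e.apply_symm_apply]

section main

variable {F : Type u} [Field F] [Fintype F] {ι : Type} [Fintype ι] [DecidableEq ι] {Q : QuadraticForm F (ι → F)}
  [hG : AutO.Good Q] {ε : LinS Q →* ℤˣ} (hε : IsEps ε)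

omit [DecidableEq ι] in
/-- an element of odd order is the image of an isometry of odd order -/
theorem exists_lift {r : ℕ} (hodd : Odd r) {x : MulAut (AutO.T Q)} (hx : x ∈ PG Q) (hxr : x ^ r = 1) :
    ∃ g : OGrp Q, g ^ r = 1 ∧ x = cL Q (ofL Q g) := by
  obtain ⟨l, rfl⟩ := hx
  have h1 : chi (exists_q (Q := Q)) l = 1 := by
    rw [← map_pow] at hxr
    obtain ⟨c, hc⟩ := (cL_eq_one_iff _).1 hxr
    have h2 := congrArg (chi (exists_q (Q := Q))) hc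
    rw [map_pow, chi_sclL] at h2
    rcases Int.units_eq_one_or (chi (exists_q (Q := Q)) l) with h | h
    · exact h
    · rw [h, hodd.neg_one_pow] at h2
      exact absurd h2 (by decide)
  obtain ⟨c, h, rfl⟩ := (chi_eq_one_iff l).1 h1
  have h2 : cL Q (sclL Q c * ofL Q h) = cL Q (ofL Q h) := by
    rw [map_mul, (cL_eq_one_iff _).2 ⟨c, rfl⟩, one_mul]
  rw [h2] at hxr ⊢
  have h3 : cL Q (ofL Q (h ^ r)) = 1 := by rw [map_pow, map_pow, hxr]
  obtain ⟨d, hd⟩ := (cL_eq_one_iff _).1 h3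
  have hdd : (d : F) * d = 1 := by
    obtain ⟨v, hv⟩ := exists_q (Q := Q)
    have h4 : ((h ^ r : OGrp Q) : (ι → F) ≃ₗ[F] (ι → F)) v = (d : F) • v := congrArg (fun l : LinS Q => ((l : GamO Q) : Equiv.Perm (ι → F)) v) hd
    have h5 := OGrp_q (h ^ r) v
    rw [h4, QuadraticMap.map_smul, smul_eq_mul] at h5
    exact mul_right_cancel₀ hv (by rw [h5, one_mul])
  have h6 : (h ^ r) * (h ^ r) = 1 := by
    apply OGrp_ext
    intro v
    have h4 : ∀ v, ((h ^ r : OGrp Q) : (ι → F) ≃ₗ[F] (ι → F)) v = (d : F) • v := fun v =>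
      congrArg (fun l : LinS Q => ((l : GamO Q) : Equiv.Perm (ι → F)) v) hd
    rw [coe_mul_apply, h4, h4, smul_smul, hdd, one_smul]
    rfl
  obtain ⟨j, hj⟩ := hodd
  refine ⟨h ^ (r + 1), ?_, ?_⟩
  · rw [← pow_mul, mul_comm, pow_mul, hj, show 2 * j + 1 + 1 = 2 * (j + 1) by ring, pow_mul, pow_two]
    rw [hj] at h6
    rw [h6, one_pow]
  · rw [map_pow, map_pow, pow_succ, hxr, one_mul]

include hε

/-- **fusion** -/
theorem fusion (h2 : (2 : F) ≠ 0) {n : ℕ} (hn : Fintype.card ι = 2 * n)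
    (hdet : ∀ l : LinS Q, dL Q l = mu (exists_q (Q := Q)) l ^ n * sgn F (ε l)) (hχ : ∃ l : LinS Q, chi (exists_q (Q := Q)) l = -1)
    {τ : ℂ} (hτ : τ * τ = 1) (ψ : AddChar F ℂ) (hψ : ψ.IsPrimitive) (hga : ga ψ Q = τ * (Nat.card F : ℂ) ^ n)
    {r p : ℕ} (hr : r.Prime) (hr2 : r ≠ 2) [Fact p.Prime] [CharP F p] (hrp : r ≠ p) {x : MulAut (AutO.T Q)} (hx : x ∈ PG Q) (hxr : x ^ r = 1) :
    (∀ y, (Cfsg.IsConjUnder (Cfsg.Inn (AutO.T Q)) x y ↔ Cfsg.IsConjUnder (PI ε) x y) ∧ (Cfsg.IsConjUnder (PS Q) x y ↔ Cfsg.IsConjUnder (PI ε) x y)) ∧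
      (∀ y, Cfsg.IsConjUnder ((cL Q).comp (ofL Q)).range x y ↔ Cfsg.IsConjUnder (PG Q) x y) := by
  haveI : Fact r.Prime := ⟨hr⟩
  have hodd : Odd r := hr.odd_of_ne_two hr2
  obtain ⟨g, hg, rfl⟩ := exists_lift hodd hx hxr
  have hrF : (r : F) ≠ 0 := rF_ne_zero (p := p) hr hrp
  have hq : Nat.card F = Nat.card F := rfl
  have hqr : ((Nat.card F : ℕ) : ZMod r) ≠ 0 := qr_ne_zero (p := p) (F := F) Nat.card_eq_fintype_card.symm hrp
  obtain ⟨ζ, hζ⟩ := exists_zeta (F := F) (r := r) hrF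
  have hV : finrank F (ι → F) = 2 * n := by rw [finrank_fintype_fun_eq_card, hn]
  have hn1 : 1 ≤ n := by
    have := hG.dim
    omega
  have hcomm : ∀ {a b : LinS Q}, a * b = b * a → cL Q a * cL Q b = cL Q b * cL Q a := by
    intro a b h
    rw [← map_mul, h, map_mul]
  obtain ⟨⟨u, hu1, hu2, hu3⟩, hρ⟩ := exists_uV hζ h2 hr2 hrF ψ hψ hq hqr hG.nd hG.rg hV hn1 hτ hga hg
  -- the similarity
  obtain ⟨s', hs'1, hs'2, hs'3⟩ : ∃ s' : LinS Q, s' * ofL Q g = ofL Q g * s' ∧ chi (exists_q (Q := Q)) s' = -1 ∧ ε s' = 1 := by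
    obtain ⟨s0, hs0⟩ := hχ
    obtain ⟨h, hcomm⟩ := comm_sim hG.nd hrF hodd hg s0
    set s := (ofL Q h)⁻¹ * s0 with hs
    have hchi : chi (exists_q (Q := Q)) s = -1 := by
      rw [hs, map_mul, map_inv, chi_ofL, inv_one, one_mul, hs0]
    rcases Int.units_eq_one_or (ε s) with h1 | h1
    · exact ⟨s, hcomm, hchi, h1⟩
    · rcases hρ with ⟨ρ, hρ1, hρ2⟩ | h0
      · refine ⟨s * ofL Q ρ, ?_, ?_, ?_⟩
        · have h3 : ofL Q ρ * ofL Q g = ofL Q g * ofL Q ρ := by rw [← map_mul, hρ1, map_mul]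
          rw [mul_assoc, h3, ← mul_assoc, hcomm, mul_assoc]
        · rw [map_mul, hchi, chi_ofL, mul_one]
        · rw [map_mul, h1, hε.isom, hρ2]; rfl
      · exfalso
        have hdets : dL Q s = mu (exists_q (Q := Q)) s ^ n := by
          apply Units.ext
          rw [coe_dL, Units.val_pow_eq_pow_val]
          apply det_comm hG.nd hV (g := (g : (ι → F) ≃ₗ[F] (ι → F))) (fun x => g.2 x)
            (hfix_of_mult hζ hodd (g := (g : (ι → F) ≃ₗ[F] (ι → F))) (congrArg Subtype.val hg) h0) _ (Units.ne_zero _)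
          · intro x
            exact (mu_spec (exists_q (Q := Q)) s).q x
          · intro x
            have h1 := congrArg (fun l : LinS Q => ((l : GamO Q) : Equiv.Perm (ι → F)) x) hcomm
            exact h1
        have h3 := hdet s
        rw [hdets, h1, sgn_neg_one] at h3
        have h4 := mul_eq_left.mp h3.symm
        have h5 := congrArg Units.val h4
        rw [Units.val_neg, Units.val_one] at h5
        apply h2
        linear_combination -h5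
  have hsx : (cL Q s')⁻¹ * cL Q (ofL Q g) = cL Q (ofL Q g) * (cL Q s')⁻¹ := by
    rw [← map_inv]
    apply hcomm
    rw [inv_mul_eq_iff_eq_mul, ← mul_assoc, hs'1, mul_inv_cancel_right]
  have hux : (cL Q (ofL Q u))⁻¹ * cL Q (ofL Q g) = cL Q (ofL Q g) * (cL Q (ofL Q u))⁻¹ := by
    rw [← map_inv]
    apply hcomm
    rw [inv_mul_eq_iff_eq_mul, ← mul_assoc, ← map_mul, hu1, map_mul, mul_inv_cancel_right]
  have hchi' : ∀ a : ℤˣ, a ≠ 1 → a * (-1 : ℤˣ)⁻¹ = 1 := by decide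
  have key2 : ∀ y, Cfsg.IsConjUnder (PI ε) (cL Q (ofL Q g)) y → Cfsg.IsConjUnder (PS Q) (cL Q (ofL Q g)) y := by
    intro y
    apply conj_of
    rintro _ ⟨l, hl, rfl⟩
    have hl' : ε l = 1 := hl
    by_cases hc : chi (exists_q (Q := Q)) l = 1
    · exact ⟨1, by rw [one_mul, mul_one], by rw [mul_one]; exact (mem_PS_iff hε l).2 ⟨hc, hl'⟩⟩
    · refine ⟨(cL Q s')⁻¹, hsx, ?_⟩
      rw [← map_inv, ← map_mul]
      refine (mem_PS_iff hε _).2 ⟨?_, ?_⟩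
      · rw [map_mul, map_inv, hs'2]; exact hchi' _ hc
      · rw [map_mul, map_inv, hs'3, hl', inv_one, one_mul]
  have key1 : ∀ y, Cfsg.IsConjUnder (PS Q) (cL Q (ofL Q g)) y → Cfsg.IsConjUnder (Cfsg.Inn (AutO.T Q)) (cL Q (ofL Q g)) y := by
    intro y
    apply conj_of
    rintro _ ⟨a, ha, rfl⟩
    have ha' : parityHom hG.nd hG.rg a = 1 := ha
    have hin : ∀ b : OGrp Q, parityHom hG.nd hG.rg b = 1 → spinHom hG.nd hG.rg b = 1 → cL Q (ofL Q b) ∈ Cfsg.Inn (AutO.T Q) := by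
      intro b hb1 hb2
      obtain ⟨k, hk⟩ := exists_om hG.nd hG.rg hb1 hb2
      refine (cL_mem_inn_iff _).2 ⟨1, k, ?_⟩
      rw [hk, show sclL Q (1 : Fˣ) = 1 from Subtype.ext (gam_ext fun v => by
        rw [coe_sclL, scl_apply, Units.val_one, one_smul]; rfl), one_mul]
    by_cases hc : spinHom hG.nd hG.rg a = 1
    · exact ⟨1, by rw [one_mul, mul_one], by rw [mul_one]; exact hin a ha' hc⟩
    · refine ⟨(cL Q (ofL Q u))⁻¹, hux, ?_⟩
      change cL Q (ofL Q a) * (cL Q (ofL Q u))⁻¹ ∈ _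
      rw [← map_inv, ← map_mul, ← map_inv, ← map_mul]
      apply hin
      · rw [map_mul, map_inv, ha', hu2, inv_one, one_mul]
      · rw [map_mul, map_inv, hu3]; exact hchi' _ hc
  refine ⟨fun y => ⟨⟨?_, fun h => key1 y (key2 y h)⟩, ⟨conj_mono (PS_le_PI hε), key2 y⟩⟩, fun y => ⟨?_, ?_⟩⟩
  · exact conj_mono (inn_le_PS.trans (PS_le_PI hε))
  · apply conj_mono
    rintro _ ⟨a, rfl⟩
    exact ⟨ofL Q a, rfl⟩
  · apply conj_of
    rintro _ ⟨l, rfl⟩
    have hin : ∀ l : LinS Q, chi (exists_q (Q := Q)) l = 1 → cL Q l ∈ ((cL Q).comp (ofL Q)).range := by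
      intro l hl
      obtain ⟨c, b, rfl⟩ := (chi_eq_one_iff l).1 hl
      refine ⟨b, ?_⟩
      rw [map_mul, (cL_eq_one_iff _).2 ⟨c, rfl⟩, one_mul]
      rfl
    by_cases hc : chi (exists_q (Q := Q)) l = 1
    · exact ⟨1, by rw [one_mul, mul_one], by rw [mul_one]; exact hin l hc⟩
    · refine ⟨(cL Q s')⁻¹, hsx, ?_⟩
      rw [← map_inv, ← map_mul]
      apply hin
      rw [map_mul, map_inv, hs'2]; exact hchi' _ hc


/-- **fusion**, for the matrix groups -/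
theorem fusion' (h2 : (2 : F) ≠ 0) {n : ℕ} (hn : Fintype.card ι = 2 * n)
    (hdet : ∀ l : LinS Q, dL Q l = mu (exists_q (Q := Q)) l ^ n * sgn F (ε l)) (hχ : ∃ l : LinS Q, chi (exists_q (Q := Q)) l = -1)
    {τ : ℂ} (hτ : τ * τ = 1) (ψ : AddChar F ℂ) (hψ : ψ.IsPrimitive) (hga : ga ψ Q = τ * (Nat.card F : ℂ) ^ n)
    {r p : ℕ} (hr : r.Prime) (hr2 : r ≠ 2) [Fact p.Prime] [CharP F p] (hrp : r ≠ p) {D : Subgroup (MulAut (Cfsg.POmega F ⇑Q))}
    (hD : ∀ β, β ∈ D ↔ MulAut.congr (ClassO.pomE Q) β ∈ ε.ker.map (cL Q)) {x : MulAut (Cfsg.POmega F ⇑Q)}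
    (hx : x ∈ Cfsg.pgoAut F ⇑Q) (hxr : orderOf x = r) :
    (∀ y, (Cfsg.IsConjUnder (Cfsg.Inn (Cfsg.POmega F ⇑Q)) x y ↔ Cfsg.IsConjUnder D x y) ∧
      (Cfsg.IsConjUnder (Cfsg.psoAut F ⇑Q) x y ↔ Cfsg.IsConjUnder D x y)) ∧
      (∀ y, Cfsg.IsConjUnder (Cfsg.poAut F ⇑Q) x y ↔ Cfsg.IsConjUnder (Cfsg.pgoAut F ⇑Q) x y) := by
  have hfus := fusion hε h2 hn hdet hχ hτ ψ hψ hga hr hr2 hrp (x := MulAut.congr (ClassO.pomE Q) x) ((mem_pgo x).1 hx) (by
      rw [← map_pow, ← hxr, pow_orderOf_eq_one, map_one])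
  refine ⟨fun y => ⟨?_, ?_⟩, fun y => ?_⟩
  · exact (conj_transport _ mem_inn x y).trans (Iff.trans (hfus.1 _).1 (conj_transport _ hD x y).symm)
  · exact (conj_transport _ (mem_pso h2) x y).trans (Iff.trans (hfus.1 _).2 (conj_transport _ hD x y).symm)
  · exact (conj_transport _ mem_po x y).trans (Iff.trans (hfus.2 _) (conj_transport _ mem_pgo x y).symm)

end main

end Cfsg.Agent.Iso44.Fus
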