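import Cfsg.Agent.Orth.Types
import Cfsg.Agent.OrthCount.Orders
import Mathlib.NumberTheory.LegendreSymbol.Complex
import Mathlib.Algebra.BigOperators.Finprod

/-!
The Gauss sum of a quadratic form as an invariant of its type.
-/

set_option autoImplicit false

universe u

namespace Cfsg.Agent.Iso44

open QuadraticMap Module Cfsg.Agent.Orth

variable {F : Type u} [Field F] [Finite F]

/-- the Gauss sum -/
noncomputable def ga (ψ : AddChar F ℂ) {V : Type*} (Q : V → F) : ℂ := ∑ᶠ v : V, ψ (Q v)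

omit [Finite F] in
theorem ga_isom (ψ : AddChar F ℂ) {V W : Type*} {Q : V → F} {Q' : W → F} (e : V ≃ W) (he : ∀ v, Q' (e v) = Q v) :
    ga ψ Q = ga ψ Q' := by
  unfold ga
  rw [← finsum_comp_equiv e]
  simp only [he]

omit [Finite F] in
theorem ga_prod (ψ : AddChar F ℂ) {V W : Type*} [Finite V] [Finite W] (Q : V → F) (Q' : W → F) :
    ga ψ (fun p : V × W => Q p.1 + Q' p.2) = ga ψ Q * ga ψ Q' := by
  have : Fintype V := Fintype.ofFinite V
  have : Fintype W := Fintype.ofFinite W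
  unfold ga
  rw [finsum_eq_sum_of_fintype, finsum_eq_sum_of_fintype, finsum_eq_sum_of_fintype, Fintype.sum_prod_type, Finset.sum_mul_sum]
  simp only [AddChar.map_add_eq_mul]

theorem ga_hyp (ψ : AddChar F ℂ) (hψ : ψ.IsPrimitive) : ga ψ (fun p : F × F => p.1 * p.2) = Nat.card F := by
  classical
  have : Fintype F := Fintype.ofFinite F
  unfold ga
  rw [finsum_eq_sum_of_fintype, Fintype.sum_prod_type, Finset.sum_comm]
  simp only [AddChar.sum_mulShift _ hψ]
  simp

theorem ga_plus (ψ : AddChar F ℂ) (hψ : ψ.IsPrimitive) (m : ℕ) : ga ψ (qfPlus m F) = (Nat.card F : ℂ) ^ m := by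
  classical
  have : Fintype F := Fintype.ofFinite F
  have h1 : ga ψ (qfPlus m F) = ga ψ (fun p : Fin m → F × F => ∑ i, (p i).1 * (p i).2) := by
    refine ga_isom ψ
      { toFun := fun v i => (v (Sum.inl i), v (Sum.inr i))
        invFun := fun p => Sum.elim (fun i => (p i).1) (fun i => (p i).2)
        left_inv := fun v => by funext i; rcases i with i | i <;> rfl
        right_inv := fun p => rfl } fun v => ?_
    rw [qfPlus_apply]; rfl
  rw [h1]
  unfold ga
  rw [finsum_eq_sum_of_fintype]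
  have h2 : ∀ p : Fin m → F × F, ψ (∑ i, (p i).1 * (p i).2) = ∏ i, ψ ((p i).1 * (p i).2) := by
    intro p
    generalize (Finset.univ : Finset (Fin m)) = s
    induction s using Finset.induction_on with
    | empty => rw [Finset.sum_empty, Finset.prod_empty, AddChar.map_zero_eq_one]
    | insert i s hi ih => rw [Finset.sum_insert hi, Finset.prod_insert hi, AddChar.map_add_eq_mul, ih]
  simp only [h2]
  rw [← Fintype.prod_sum (fun (_ : Fin m) (z : F × F) => ψ (z.1 * z.2))]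
  have h3 : ∑ z : F × F, ψ (z.1 * z.2) = Nat.card F := by
    rw [← ga_hyp ψ hψ]
    unfold ga
    rw [finsum_eq_sum_of_fintype]
  rw [Finset.prod_const, h3, Finset.card_univ, Fintype.card_fin]

theorem ga_bin (ψ : AddChar F ℂ) (hψ : ψ.IsPrimitive) {a b : F} (hab : ∀ z : F × F, OrthCount.bin a b z = 0 → z = 0) :
    ga ψ (OrthCount.bin a b) = - (Nat.card F : ℂ) := by
  classical
  have : Fintype F := Fintype.ofFinite F
  unfold ga
  rw [finsum_eq_sum_of_fintype]
  have h1 : ∑ z : F × F, ψ (OrthCount.bin a b z) = ∑ c : F, ∑ z ∈ Finset.univ.filter (fun z : F × F => OrthCount.bin a b z = c), ψ (OrthCount.bin a b z) :=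
    (Finset.sum_fiberwise_of_maps_to (fun _ _ => Finset.mem_univ _) _).symm
  have h2 : ∀ c : F, ∑ z ∈ Finset.univ.filter (fun z : F × F => OrthCount.bin a b z = c), ψ (OrthCount.bin a b z) =
      (Nat.card {z : F × F // OrthCount.bin a b z = c} : ℂ) * ψ c := by
    intro c
    rw [Finset.sum_congr rfl (g := fun _ => ψ c) (fun z hz => by rw [(Finset.mem_filter.1 hz).2]), Finset.sum_const,
      nsmul_eq_mul, Nat.card_eq_fintype_card, Fintype.card_subtype]
  rw [h1]
  simp only [h2]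
  have h3 : ∑ c : F, ψ c = 0 := by
    apply AddChar.sum_eq_zero_of_ne_one
    intro h
    have h4 := hψ (one_ne_zero (α := F))
    apply h4
    rw [h]
    ext x
    simp [AddChar.mulShift_apply]
  rw [← Finset.add_sum_erase _ _ (Finset.mem_univ (0 : F))] at h3 ⊢
  have h4 : ∑ c ∈ Finset.univ.erase (0 : F), (Nat.card {z : F × F // OrthCount.bin a b z = c} : ℂ) * ψ c =
      ((Nat.card F : ℂ) + 1) * ∑ c ∈ Finset.univ.erase (0 : F), ψ c := by
    rw [Finset.mul_sum]
    refine Finset.sum_congr rfl fun c hc => ?_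
    rw [OrthCount.card_bin_eq hab (Finset.ne_of_mem_erase hc), OrthCount.card_norm_one hab]
    push_cast
    ring
  have h5 : Nat.card {z : F × F // OrthCount.bin a b z = 0} = 1 := by
    rw [Nat.card_eq_one_iff_unique]
    exact ⟨⟨fun z w => Subtype.ext ((hab _ z.2).trans (hab _ w.2).symm)⟩, ⟨⟨0, by rw [OrthCount.bin_apply]; simp⟩⟩⟩
  rw [h4, h5]
  rw [AddChar.map_zero_eq_one] at h3 ⊢
  have h6 : ∑ c ∈ Finset.univ.erase (0 : F), ψ c = -1 := by linear_combination h3
  rw [h6]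
  push_cast
  ring

theorem ga_minus (ψ : AddChar F ℂ) (hψ : ψ.IsPrimitive) (m : ℕ) {a b : F}
    (hab : ∀ z₁ z₂ : F, z₁ ^ 2 + a * z₁ * z₂ + b * z₂ ^ 2 = 0 → z₁ = 0 ∧ z₂ = 0) :
    ga ψ (qfMinus m F a b) = - (Nat.card F : ℂ) ^ (m + 1) := by
  have h1 : ga ψ (qfMinus m F a b) = ga ψ (fun p : (Fin m ⊕ Fin m → F) × (F × F) => qfPlus m F p.1 + OrthCount.bin a b p.2) := by
    refine ga_isom ψ (OrthCount.minusEquiv m).toEquiv fun v => ?_
    show qfPlus m F ((OrthCount.minusEquiv m) v).1 + OrthCount.bin a b ((OrthCount.minusEquiv m) v).2 = _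
    rw [qfPlus_apply, OrthCount.bin_apply, qfMinus_apply]
    show ∑ i, v (Sum.inl (Sum.inl i)) * v (Sum.inl (Sum.inr i)) + (v (Sum.inr 0) ^ 2 + a * v (Sum.inr 0) * v (Sum.inr 1) + b * v (Sum.inr 1) ^ 2) = _
    ring
  rw [h1, ga_prod, ga_plus ψ hψ, ga_bin ψ hψ (OrthCount.aniso_of hab)]
  ring

theorem exists_zeta_elliptic : ∃ ζ : F, ∀ t : F, t ^ 2 + t + ζ ≠ 0 := by
  by_contra h
  push Not at h
  have h1 : Function.Surjective (fun t : F => t ^ 2 + t) := by
    intro c
    obtain ⟨t, ht⟩ := h (-c)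
    exact ⟨t, by simp only; linear_combination ht⟩
  have h2 := Finite.injective_iff_surjective.2 h1
  have h3 : (fun t : F => t ^ 2 + t) 0 = (fun t : F => t ^ 2 + t) (-1) := by simp
  have h4 := h2 h3
  have h5 : (1 : F) = 0 := by linear_combination h4
  exact one_ne_zero h5

/-- the type -/
theorem ga_cases (ψ : AddChar F ℂ) (hψ : ψ.IsPrimitive) {V : Type*} [AddCommGroup V] [Module F V] [FiniteDimensional F V] {m : ℕ}
    (hV : finrank F V = 2 * m) {Q : QuadraticForm F V} (hQ : (polarBilin Q).Nondegenerate) :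
    ga ψ Q = (Nat.card F : ℂ) ^ m ∨ (1 ≤ m ∧ ga ψ Q = -(Nat.card F : ℂ) ^ m) := by
  rcases Nat.eq_zero_or_pos m with h0 | hm
  · left
    subst h0
    have : Subsingleton V := finrank_zero_iff.1 (by rw [hV])
    have : Unique V := ⟨⟨0⟩, fun x => Subsingleton.elim _ _⟩
    unfold ga
    rw [finsum_unique]
    rw [show (default : V) = 0 from Subsingleton.elim _ _, QuadraticMap.map_zero, AddChar.map_zero_eq_one, pow_zero]
  · rcases classify_even hm hV hQ with ⟨g, hg⟩ | ⟨ζ, hζ, g, hg⟩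
    · left
      rw [ga_isom ψ g.toEquiv hg, ga_plus ψ hψ]
    · right
      refine ⟨hm, ?_⟩
      rw [ga_isom ψ g.toEquiv hg, ga_minus ψ hψ (m - 1) (aniso_of_root hζ)]
      obtain ⟨m', rfl⟩ : ∃ m', m = m' + 1 := ⟨m - 1, by omega⟩
      rw [Nat.add_sub_cancel]

/-- spaces of the same dimension and type are isometric -/
theorem isom_of_ga (ψ : AddChar F ℂ) (hψ : ψ.IsPrimitive) {V W : Type*} [AddCommGroup V] [Module F V] [FiniteDimensional F V]
    [AddCommGroup W] [Module F W] [FiniteDimensional F W] {m : ℕ}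
    (hV : finrank F V = 2 * m) (hW : finrank F W = 2 * m) {Q : QuadraticForm F V} (hQ : (polarBilin Q).Nondegenerate)
    {Q' : QuadraticForm F W} (hQ' : (polarBilin Q').Nondegenerate) (h : ga ψ Q = ga ψ Q') :
    ∃ g : V ≃ₗ[F] W, ∀ v, Q' (g v) = Q v := by
  have hq : (Nat.card F : ℂ) ^ m ≠ 0 := pow_ne_zero _ (Nat.cast_ne_zero.2 Nat.card_pos.ne')
  have hne : (Nat.card F : ℂ) ^ m ≠ - (Nat.card F : ℂ) ^ m := fun h' => hq (by linear_combination (1/2 : ℂ) * h')
  rcases Nat.eq_zero_or_pos m with h0 | hm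
  · subst h0
    have : Subsingleton V := finrank_zero_iff.1 (by rw [hV])
    refine ⟨LinearEquiv.ofFinrankEq V W (by rw [hV, hW]), fun v => ?_⟩
    rw [Subsingleton.elim v 0, map_zero, QuadraticMap.map_zero, QuadraticMap.map_zero]
  · obtain ⟨m', rfl⟩ : ∃ m', m = m' + 1 := ⟨m - 1, by omega⟩
    rcases classify_even hm hV hQ with ⟨g, hg⟩ | ⟨ζ, hζ, g, hg⟩ <;>
      rcases classify_even hm hW hQ' with ⟨g', hg'⟩ | ⟨ζ', hζ', g', hg'⟩
    · exact ⟨g.trans g'.symm, fun v => by rw [LinearEquiv.trans_apply, ← hg', g'.apply_symm_apply, hg]⟩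
    · exfalso
      rw [ga_isom ψ g.toEquiv hg, ga_isom ψ g'.toEquiv hg', ga_plus ψ hψ, ga_minus ψ hψ _ (aniso_of_root hζ')] at h
      exact hne h
    · exfalso
      rw [ga_isom ψ g.toEquiv hg, ga_isom ψ g'.toEquiv hg', ga_plus ψ hψ, ga_minus ψ hψ _ (aniso_of_root hζ)] at h
      exact hne h.symm
    · obtain ⟨k, hk⟩ := exists_isom_minus_param (m := m' + 1 - 1) hζ' hζ
      exact ⟨(g.trans k).trans g'.symm, fun v => by
        rw [LinearEquiv.trans_apply, ← hg', g'.apply_symm_apply, LinearEquiv.trans_apply, hk, hg]⟩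

/-- existence of spaces of given type -/
theorem exists_space (ψ : AddChar F ℂ) (hψ : ψ.IsPrimitive) (m : ℕ) {τ : ℂ} (hτ : τ = 1 ∨ (τ = -1 ∧ 1 ≤ m)) :
    ∃ (V : Type u) (_ : AddCommGroup V) (_ : Module F V) (_ : FiniteDimensional F V) (Q : QuadraticForm F V),
      finrank F V = 2 * m ∧ (polarBilin Q).Nondegenerate ∧ ga ψ Q = τ * (Nat.card F : ℂ) ^ m := by
  rcases hτ with rfl | ⟨rfl, hm⟩
  · refine ⟨(Fin m ⊕ Fin m → F), inferInstance, inferInstance, inferInstance, qfPlus m F, finrank_V m F, qfPlus_nondegenerate m F, ?_⟩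
    rw [ga_plus ψ hψ, one_mul]
  · obtain ⟨ζ, hζ⟩ := exists_zeta_elliptic (F := F)
    obtain ⟨m', rfl⟩ : ∃ m', m = m' + 1 := ⟨m - 1, by omega⟩
    refine ⟨((Fin m' ⊕ Fin m') ⊕ Fin 2 → F), inferInstance, inferInstance, inferInstance, qfMinus m' F 1 ζ, ?_,
      qfMinus_nondegenerate m' F (disc_ne_zero_of_aniso (aniso_of_root hζ)), ?_⟩
    · rw [finrank_fintype_fun_eq_card, Fintype.card_sum, Fintype.card_sum, Fintype.card_fin, Fintype.card_fin]; ring
    · rw [ga_minus ψ hψ m' (aniso_of_root hζ)]; ring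

end Cfsg.Agent.Iso44
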