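import Cfsg.Agent.Iso44.Setup
import Cfsg.Agent.H43.Unitary2
import Cfsg.Agent.Uni.Basis
import Mathlib.LinearAlgebra.Pi

/-!
Realizing multiplicity functions by unitary isometries.
-/

set_option autoImplicit false

universe u

namespace Cfsg.Agent.Iso44

open Polynomial Module Matrix

/-- the unitary group as linear automorphisms -/
def guG (K : Type*) [Field K] (n q : ℕ) : Subgroup ((Fin n → K) ≃ₗ[K] (Fin n → K)) where
  carrier := {g | ∀ x y, Cfsg.hermForm n K q (g x) (g y) = Cfsg.hermForm n K q x y}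
  mul_mem' := by
    intro a b ha hb x y
    exact (ha _ _).trans (hb x y)
  one_mem' := fun x y => rfl
  inv_mem' := by
    intro a ha x y
    have h := ha (a⁻¹ x) (a⁻¹ y)
    have h1 : ∀ z, a (a⁻¹ z) = z := fun z => LinearEquiv.apply_symm_apply a z
    rw [h1, h1] at h
    exact h.symm

theorem mem_guG {K : Type*} [Field K] {n q : ℕ} {g : (Fin n → K) ≃ₗ[K] (Fin n → K)} :
    g ∈ guG K n q ↔ ∀ x y, Cfsg.hermForm n K q (g x) (g y) = Cfsg.hermForm n K q x y := Iff.rfl

/-- `GL` as linear automorphisms. -/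
noncomputable def glE' (n : ℕ) (F : Type*) [Field F] :
    Matrix.GeneralLinearGroup (Fin n) F ≃* ((Fin n → F) ≃ₗ[F] (Fin n → F)) :=
  Matrix.GeneralLinearGroup.toLin.trans (LinearMap.GeneralLinearGroup.generalLinearEquiv F (Fin n → F))

theorem glE'_apply {n : ℕ} {F : Type*} [Field F] (g : Matrix.GeneralLinearGroup (Fin n) F) (x : Fin n → F) :
    glE' n F g x = (g : Matrix (Fin n) (Fin n) F).mulVec x := rfl

theorem map_guG (K : Type*) [Field K] (n q : ℕ) :
    (Cfsg.GU n K q).map (glE' n K : Matrix.GeneralLinearGroup (Fin n) K →* _) = guG K n q := by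
  ext g
  rw [Subgroup.mem_map, mem_guG]
  constructor
  · rintro ⟨h, hh, rfl⟩ x y
    exact hh x y
  · intro hg
    refine ⟨(glE' n K).symm g, ?_, (glE' n K).apply_symm_apply g⟩
    intro u v
    have h1 : ∀ u, (glE' n K ((glE' n K).symm g)) u
        = (((glE' n K).symm g : Matrix.GeneralLinearGroup (Fin n) K) : Matrix (Fin n) (Fin n) K).mulVec u := fun u => glE'_apply _ _
    rw [(glE' n K).apply_symm_apply g] at h1
    have h2 := hg u v
    rw [h1, h1] at h2
    exact h2

noncomputable def guBridge (K : Type*) [Field K] (n q : ℕ) : ↥(Cfsg.GU n K q) ≃* ↥(guG K n q) :=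
  ((glE' n K).subgroupMap (Cfsg.GU n K q)).trans (MulEquiv.subgroupCongr (map_guG K n q))

theorem guBridge_apply (K : Type*) [Field K] (n q : ℕ) (g : ↥(Cfsg.GU n K q)) (x : Fin n → K) :
    ((guBridge K n q g : ↥(guG K n q)) : (Fin n → K) ≃ₗ[K] (Fin n → K)) x =
      ((g : Matrix.GeneralLinearGroup (Fin n) K) : Matrix (Fin n) (Fin n) K).mulVec x := rfl

/-- conjugacy in the unitary group -/
theorem conj_gu {K : Type*} [Field K] [Fintype K] {q n : ℕ} (hK : Fintype.card K = q ^ 2) {g g' : (Fin n → K) ≃ₗ[K] (Fin n → K)}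
    (hg : g ∈ guG K n q) (hg' : g' ∈ guG K n q) (P : (Fin n → K) ≃ₗ[K] (Fin n → K)) (hP : ∀ x, P (g x) = g' (P x)) :
    ∃ h ∈ guG K n q, ∀ x, h (g x) = g' (h x) := by
  obtain ⟨A, hA⟩ := (guBridge K n q).surjective ⟨g, hg⟩
  obtain ⟨B, hB⟩ := (guBridge K n q).surjective ⟨g', hg'⟩
  have hA' : glE' n K (A : GL (Fin n) K) = g := congrArg Subtype.val hA
  have hB' : glE' n K (B : GL (Fin n) K) = g' := congrArg Subtype.val hB
  have h1 : IsConj A B := by
    rw [H43.isConj_GU_iff hK, isConj_iff]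
    refine ⟨(glE' n K).symm P, ?_⟩
    apply (glE' n K).injective
    rw [map_mul, map_mul, map_inv, (glE' n K).apply_symm_apply, hA', hB', mul_inv_eq_iff_eq_mul]
    exact LinearEquiv.ext hP
  rw [isConj_iff] at h1
  obtain ⟨c, hc⟩ := h1
  refine ⟨(guBridge K n q c : ↥(guG K n q)), (guBridge K n q c).2, fun x => ?_⟩
  rw [mul_inv_eq_iff_eq_mul] at hc
  have h2 := congrArg (fun z => ((guBridge K n q z : ↥(guG K n q)) : (Fin n → K) ≃ₗ[K] (Fin n → K)) x) hc
  simp only [map_mul] at h2
  rw [hA, hB] at h2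
  exact h2

/-- the splitting of coordinates -/
noncomputable def splE (K : Type*) [Field K] (k l : ℕ) : (Fin (k + l) → K) ≃ₗ[K] (Fin k → K) × (Fin l → K) :=
  (LinearEquiv.funCongrLeft K K finSumFinEquiv).trans (LinearEquiv.sumArrowLequivProdArrow (Fin k) (Fin l) K K)

theorem splE_apply (K : Type*) [Field K] (k l : ℕ) (x : Fin (k + l) → K) :
    splE K k l x = (fun i => x (Fin.castAdd l i), fun j => x (Fin.natAdd k j)) := rfl

theorem herm_spl (K : Type*) [Field K] (k l q : ℕ) (x y : Fin (k + l) → K) :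
    Cfsg.hermForm (k + l) K q x y = Cfsg.hermForm k K q (splE K k l x).1 (splE K k l y).1 +
      Cfsg.hermForm l K q (splE K k l x).2 (splE K k l y).2 := by
  unfold Cfsg.hermForm
  rw [Fin.sum_univ_add]
  rfl

variable {r : ℕ} [hr : Fact r.Prime] {E : Type*} [Field E] {K : Type u} [Field K] [Fintype K] [Algebra K E]
variable {ζ : E} (hζ : IsPrimitiveRoot ζ r) [IsAlgClosed E]

include hζ in
/-- invariance of the multiplicities -/
theorem inv_gu {q n p : ℕ} [hp : Fact p.Prime] [CharP K p] (hK : Fintype.card K = q ^ 2) {w : (ZMod r)ˣ} (hqr : (q : ZMod r) ≠ 0)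
    (hw : (w : ZMod r) = -q) (g : (Fin n → K) ≃ₗ[K] (Fin n → K)) (hg : g ∈ guG K n q) (hgr : g ^ r = 1) :
    Inv (Subgroup.zpowers w) (mult ζ (g : End K (Fin n → K))) := by
  apply inv_zpowers
  intro j
  rw [hw]
  obtain ⟨A, hA⟩ := (guBridge K n q).surjective ⟨g, hg⟩
  have hA' : ∀ x, ((A : GL (Fin n) K) : Matrix (Fin n) (Fin n) K) *ᵥ x = g x := by
    intro x
    rw [← guBridge_apply, hA]
  have hAl : (g : End K (Fin n → K)) = Matrix.toLin' ((A : GL (Fin n) K) : Matrix (Fin n) (Fin n) K) := by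
    apply LinearMap.ext
    intro x
    rw [Matrix.toLin'_apply, hA']; rfl
  have h1 := (H43.mem_GU_iff hK (A : GL (Fin n) K)).1 A.2
  set M : Matrix (Fin n) (Fin n) K := ((A : GL (Fin n) K) : Matrix (Fin n) (Fin n) K) with hM
  set N : Matrix (Fin n) (Fin n) K := H43.stm (Cfsg.Agent.ClGeo.frob hK) M with hN
  have hMN : M * N = 1 := mul_eq_one_comm.1 h1
  have hcN : N.charpoly = M.charpoly.map (Cfsg.Agent.ClGeo.frob hK : K →+* K) := by
    rw [hN]
    unfold H43.stm
    rw [Matrix.charpoly_transpose, ← Matrix.charpoly_map]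
  -- exponents
  obtain ⟨d, hd⟩ := exps_lin hζ (g : End K (Fin n → K)) (coe_pow_one hgr)
  have hd1 := hd 1
  simp only [pow_one, Nat.cast_one, one_mul] at hd1
  -- Frobenius of E
  obtain ⟨e, hqe⟩ : ∃ e, q = p ^ e := by
    obtain ⟨m, -, hm⟩ := FiniteField.card K p
    rw [hK] at hm
    obtain ⟨e, -, he⟩ := (Nat.dvd_prime_pow hp.out).1 (hm ▸ dvd_pow_self q two_ne_zero)
    exact ⟨e, he⟩
  have : CharP E p := charP_of_injective_algebraMap (algebraMap K E).injective p
  have hfr : (algebraMap K E).comp (Cfsg.Agent.ClGeo.frob hK : K →+* K) = (iterateFrobenius E p e).comp (algebraMap K E) := by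
    ext x
    rw [RingHom.comp_apply, RingHom.comp_apply, iterateFrobenius_def, ← map_pow, ← hqe]
    exact congrArg _ (Cfsg.Agent.ClGeo.frob_apply hK x)
  have h2 : (Matrix.toLin' N).charpoly.map (algebraMap K E) = ∏ i, (X - C (rt ζ ((q : ZMod r) * d i))) := by
    rw [Matrix.charpoly_toLin', hcN, Polynomial.map_map, hfr, ← Polynomial.map_map]
    have h3 : M.charpoly = (g : End K (Fin n → K)).charpoly := by rw [hAl, Matrix.charpoly_toLin']
    rw [h3, hd1, Polynomial.map_prod]
    refine Finset.prod_congr rfl fun i _ => ?_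
    rw [Polynomial.map_sub, Polynomial.map_X, Polynomial.map_C, iterateFrobenius_def, ← hqe, rt_mul hζ]
  have h3 : mult ζ (Matrix.toLin' N) ((q : ZMod r) * j) = mult ζ (g : End K (Fin n → K)) j := by
    rw [mult_of_exps hζ h2, mult_of_exps hζ hd1]
    congr 1
    ext i
    simp only [Finset.mem_filter, Finset.mem_univ, true_and]
    exact ⟨fun h => mul_left_cancel₀ hqr h, fun h => by rw [h]⟩
  have hr1 : (((r - 1 : ℕ) : ℕ) : ZMod r) = -1 := by
    have h2 : ((r - 1 : ℕ) : ZMod r) + 1 = 0 := by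
      rw [← Nat.cast_succ, Nat.succ_eq_add_one, Nat.sub_add_cancel hr.out.one_le, ZMod.natCast_self]
    linear_combination h2
  have h4 : (g : End K (Fin n → K)) ^ (r - 1) = Matrix.toLin' N := by
    have h4 : (g : End K (Fin n → K)) ^ (r - 1) * (g : End K (Fin n → K)) = 1 := by
      rw [← pow_succ, Nat.sub_add_cancel hr.out.one_le, coe_pow_one hgr]
    have h5 : (g : End K (Fin n → K)) * Matrix.toLin' N = 1 := by
      rw [hAl, show Matrix.toLin' M * Matrix.toLin' N = Matrix.toLin' (M * N) from (Matrix.toLin'_mul M N).symm, hMN, Matrix.toLin'_one]; rfl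
    calc (g : End K (Fin n → K)) ^ (r - 1) = (g : End K (Fin n → K)) ^ (r - 1) * ((g : End K (Fin n → K)) * Matrix.toLin' N) := by rw [h5, mul_one]
      _ = Matrix.toLin' N := by rw [← mul_assoc, h4, one_mul]
  have h5 := mult_pow hζ (g : End K (Fin n → K)) (coe_pow_one hgr) (r - 1) (by rw [hr1]; exact neg_ne_zero.2 one_ne_zero) (-(q : ZMod r) * j)
  rw [hr1, h4] at h5
  rw [← h5, ← h3]
  congr 1
  ring

omit [Fintype K] [IsAlgClosed E] [Algebra K E] [Field E] [Field K] in
theorem dvd_of_neg {q : ℕ} (hq0 : 0 < q) {b : ℕ} (h : (-(q : ZMod r)) ^ (b + 1) = 1) :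
    r ∣ if Even b then q ^ (b + 1) + 1 else q ^ (b + 1) - 1 := by
  split_ifs with h1
  · have h2 : Odd (b + 1) := h1.add_one
    rw [h2.neg_pow] at h
    rw [← ZMod.natCast_eq_zero_iff]
    push_cast
    linear_combination -h
  · have h2 : Even (b + 1) := (Nat.not_even_iff_odd.1 h1).add_one
    rw [h2.neg_pow] at h
    exact dvd_pow_sub_one hq0 h

omit [IsAlgClosed E] [Algebra K E] [Field E] in
/-- an element of order `r` in the unitary group of dimension `b` -/
theorem gu_elt {q : ℕ} (hK : Fintype.card K = q ^ 2) {b : ℕ} (hb : 0 < b) (h : (-(q : ZMod r)) ^ b = 1) :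
    ∃ g ∈ guG K b q, g ^ r = 1 ∧ g ≠ 1 := by
  have hq0 : 0 < q := by
    rcases Nat.eq_zero_or_pos q with h0 | h0
    · rw [h0] at hK
      have := Fintype.card_pos (α := K)
      omega
    · exact h0
  have hd : r ∣ Nat.card (Cfsg.GU b K q) := by
    rw [Uni.card_GU hK]
    refine Dvd.dvd.mul_left ?_ _
    obtain ⟨b', rfl⟩ : ∃ b', b = b' + 1 := ⟨b - 1, by omega⟩
    rw [Finset.prod_range_succ]
    refine Dvd.dvd.mul_left ?_ _
    exact dvd_of_neg hq0 h
  rw [Nat.card_congr (guBridge K b q).toEquiv] at hd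
  have : Finite (guG K b q) := Finite.of_equiv _ (guBridge K b q).toEquiv
  obtain ⟨g, hg⟩ := exists_prime_orderOf_dvd_card' r hd
  refine ⟨g, g.2, ?_, ?_⟩
  · have h1 : g ^ r = 1 := by rw [← hg]; exact pow_orderOf_eq_one g
    exact congrArg Subtype.val h1
  · intro h1
    have h2 : g = 1 := Subtype.ext h1
    rw [h2, orderOf_one] at hg
    exact hr.out.one_lt.ne hg

include hζ in
/-- the trivial function -/
theorem mult_one_eq {V : Type*} [AddCommGroup V] [Module K V] [FiniteDimensional K V] (H : Subgroup (ZMod r)ˣ) :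
    (mult ζ (1 : End K V) : ZMod r → ℕ) = T H (finrank K V) 0 := by
  have h2 := sum_mult hζ (1 : End K V) (one_pow _)
  rw [← Finset.add_sum_erase _ _ (Finset.mem_univ (0 : ZMod r)), mult_one_zero hζ] at h2
  have h3 : ∑ x ∈ Finset.univ.erase (0 : ZMod r), mult ζ (1 : End K V) x = 0 := by omega
  apply T_ext
  · rw [mult_one_zero hζ, T_zero]
  · intro u
    rw [T_unit]
    exact Finset.sum_eq_zero_iff.1 h3 (u : ZMod r) (Finset.mem_erase.2 ⟨u.ne_zero, Finset.mem_univ _⟩)

include hζ in
/-- realization in unitary groups -/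
theorem gu_real {q p : ℕ} [hp : Fact p.Prime] [CharP K p] (hK : Fintype.card K = q ^ 2) (hqr : (q : ZMod r) ≠ 0) {w : (ZMod r)ˣ}
    (hw : (w : ZMod r) = -q) : ∀ (S n : ℕ) (x : ℕ) (a : (ZMod r)ˣ ⧸ Subgroup.zpowers w → ℕ), ∑ c, a c = S →
      x + orderOf w * S = n → ∃ g ∈ guG K n q, g ^ r = 1 ∧ (mult ζ (g : End K (Fin n → K)) : ZMod r → ℕ) = T (Subgroup.zpowers w) x a := by
  have hfr : ∀ m : ℕ, finrank K (Fin m → K) = m := by
    intro m
    rw [finrank_fintype_fun_eq_card, Fintype.card_fin]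
  have hb : Nat.card (Subgroup.zpowers w) = orderOf w := Nat.card_zpowers w
  have hk0 : 0 < orderOf w := orderOf_pos w
  intro S
  induction S with
  | zero =>
    intro n x a ha hx
    refine ⟨1, one_mem _, one_pow _, ?_⟩
    have ha0 : a = 0 := by
      funext c
      exact Finset.sum_eq_zero_iff.1 ha c (Finset.mem_univ _)
    have h1 := mult_one_eq (K := K) (V := Fin n → K) hζ (Subgroup.zpowers w)
    rw [hfr] at h1
    rw [ha0, show x = n by omega]
    exact h1
  | succ S ih =>
    intro n x a ha hx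
    obtain ⟨c, -, hc⟩ : ∃ c ∈ Finset.univ, a c ≠ 0 := by
      apply Finset.exists_ne_zero_of_sum_ne_zero
      rw [ha]; omega
    set a' : (ZMod r)ˣ ⧸ Subgroup.zpowers w → ℕ := fun d => a d - (Pi.single c 1 : _ → ℕ) d with ha'
    have haa : a = Pi.single c 1 + a' := by
      funext d
      rw [Pi.add_apply, ha']
      by_cases hd : d = c
      · subst hd; simp only [Pi.single_eq_same]; omega
      · simp only [Pi.single_eq_of_ne hd]; omega
    have hS : ∑ d, a' d = S := by
      have h1 : ∑ d, a d = ∑ d, (Pi.single c 1 : _ → ℕ) d + ∑ d, a' d := by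
        rw [← Finset.sum_add_distrib]
        exact Finset.sum_congr rfl fun d _ => congrFun haa d
      rw [ha, Finset.sum_pi_single' c 1 Finset.univ, if_pos (Finset.mem_univ _)] at h1
      omega
    have e1 : orderOf w * (S + 1) = orderOf w * S + orderOf w := by ring
    obtain ⟨n', rfl⟩ : ∃ n', n = orderOf w + n' := ⟨n - orderOf w, by omega⟩
    obtain ⟨g', hg', hgr', hm'⟩ := ih n' x a' hS (by omega)
    obtain ⟨g0, hg0, hgr0, hg01⟩ := gu_elt (r := r) hK hk0 (by
      rw [← hw, ← Units.val_pow_eq_pow_val, pow_orderOf_eq_one, Units.val_one])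
    have hinv0 := inv_gu hζ (p := p) hK hqr hw g0 hg0 hgr0
    obtain ⟨l, hl⟩ := block hζ (Subgroup.zpowers w) (g0 : End K (Fin (orderOf w) → K)) (coe_pow_one hgr0) (by
      intro h
      apply hg01
      ext x
      exact congrFun (congrArg (fun f : End K (Fin (orderOf w) → K) => f x) h) _) (by rw [hfr, hb]) hinv0 c
    have hg1 : g0 ^ l ∈ guG K (orderOf w) q := pow_mem hg0 l
    set e := (splE K (orderOf w) n').symm with he
    have hes : ∀ x, e.symm x = splE K (orderOf w) n' x := fun x => rfl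
    have hform : ∀ x y, Cfsg.hermForm (orderOf w + n') K q (e x) (e y) =
        Cfsg.hermForm (orderOf w) K q x.1 y.1 + Cfsg.hermForm n' K q x.2 y.2 := by
      intro x y
      rw [herm_spl, ← hes, ← hes, e.symm_apply_apply, e.symm_apply_apply]
    refine ⟨(e.symm.trans ((g0 ^ l).prodCongr g')).trans e, ?_, ?_, ?_⟩
    · intro x y
      simp only [LinearEquiv.trans_apply]
      rw [hform]
      simp only [LinearEquiv.prodCongr_apply]
      rw [hg1, hg', ← hform, e.apply_symm_apply, e.apply_symm_apply]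
    · have h1 : ∀ j : ℕ, ((e.symm.trans ((g0 ^ l).prodCongr g')).trans e) ^ j = (e.symm.trans (((g0 ^ l) ^ j).prodCongr (g' ^ j))).trans e := by
        intro j
        induction j with
        | zero => ext x; simp [LinearEquiv.prodCongr_apply]
        | succ j ihj =>
          rw [pow_succ, ihj, pow_succ, pow_succ]
          ext x
          simp [LinearEquiv.prodCongr_apply, LinearEquiv.mul_apply]
      rw [h1, ← pow_mul, mul_comm, pow_mul, hgr0, one_pow, hgr']
      ext x
      simp [LinearEquiv.prodCongr_apply]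
    · have h1 : (((e.symm.trans ((g0 ^ l).prodCongr g')).trans e : (Fin (orderOf w + n') → K) ≃ₗ[K] (Fin (orderOf w + n') → K)) : End K (Fin (orderOf w + n') → K)) =
          e.conj (LinearMap.prodMap ((g0 : End K (Fin (orderOf w) → K)) ^ l) (g' : End K (Fin n' → K))) := by
        apply LinearMap.ext
        intro x
        rw [← coe_pow_equiv]
        rfl
      rw [h1, mult_conj, mult_prodMap, hl, hm', T_add, zero_add, ← haa]

end Cfsg.Agent.Iso44
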