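import Mathlib.RingTheory.Ideal.Maximal
import Mathlib.GroupTheory.Index
import Mathlib.GroupTheory.Coset.Card
import Mathlib.Algebra.Group.Idempotent
import Mathlib.RingTheory.Ideal.Basic
import Mathlib.Algebra.Ring.Commute
import Mathlib.Tactic

/-!
Norm surjectivity in finite commutative rings with involution.
-/

set_option autoImplicit false

namespace Cfsg.Agent.Iso44

theorem exists_idem_pow {M : Type*} [Monoid M] [Finite M] (x : M) : ∃ n : ℕ, 0 < n ∧ x ^ n * x ^ n = x ^ n := by
  obtain ⟨i, j, hij, h⟩ := Finite.exists_ne_map_eq_of_infinite (fun n : ℕ => x ^ n)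
  wlog hlt : i < j with H
  · exact H x j i hij.symm h.symm (by omega)
  have h' : x ^ i = x ^ j := h
  have hstep : ∀ a, i ≤ a → x ^ (a + (j - i)) = x ^ a := by
    intro a ha
    obtain ⟨b, rfl⟩ := Nat.exists_eq_add_of_le ha
    have : i + b + (j - i) = j + b := by omega
    rw [this, pow_add, ← h', ← pow_add]
  have hmul : ∀ c a, i ≤ a → x ^ (a + c * (j - i)) = x ^ a := by
    intro c
    induction c with
    | zero => intro a _; simp
    | succ c ih =>
      intro a ha
      have : a + (c + 1) * (j - i) = (a + c * (j - i)) + (j - i) := by ring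
      rw [this, hstep _ (by omega), ih a ha]
  refine ⟨(i + 1) * (j - i), Nat.mul_pos (by omega) (by omega), ?_⟩
  rw [← pow_add]
  refine hmul (i + 1) _ ?_
  have : 1 ≤ j - i := by omega
  nlinarith

section
variable {R : Type*} [CommRing R] (σ : R →+* R) (hσ : ∀ x, σ (σ x) = x) (s : R) (hs : IsUnit (s - σ s))

include hσ hs in
/-- Hilbert 90 -/
theorem hilbert90_star [Finite R] (u : Rˣ) (hu : (u : R) * σ u = 1) : ∃ v : Rˣ, (v : R) = u * σ v := by
  obtain ⟨N, hN, he⟩ := exists_idem_pow (1 + (u : R))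
  set e := (1 + (u : R)) ^ N with hedef
  have hσe : σ e = e := by
    have h1 : (u : R) ^ N * σ e = e := by
      rw [hedef, map_pow, ← mul_pow, map_add, map_one, mul_add, mul_one, hu, add_comm]
    have h2 : σ e * σ e = σ e := by rw [← map_mul, he]
    -- e = u^N σ e, hence e * σ e = e and e * σ e = σ e
    have h3 : e * σ e = e := by
      have h6 : (u : R) ^ N * σ e * σ e = (u : R) ^ N * σ e := by rw [mul_assoc, h2]
      rwa [h1] at h6
    have h4 : e * σ e = σ e := by
      have h5 : σ e = ((u⁻¹ : Rˣ) : R) ^ N * e := by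
        have h6 : ((u⁻¹ : Rˣ) : R) ^ N * ((u : R) ^ N * σ e) = σ e := by
          rw [← mul_assoc, ← mul_pow, Units.inv_mul, one_pow, one_mul]
        rw [h1] at h6
        exact h6.symm
      rw [h5]
      calc e * (((u⁻¹ : Rˣ) : R) ^ N * e) = ((u⁻¹ : Rˣ) : R) ^ N * (e * e) := by ring
        _ = _ := by rw [he]
    exact h4.symm.trans h3
  set v : R := e * (1 + u) + (1 - e) * (s + u * σ s) with hv
  have hveq : v = u * σ v := by
    rw [hv, map_add, map_mul, map_mul, map_sub, map_add, map_add, map_mul, map_one, hσe, hσ]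
    have h1 : (u : R) * (e * (1 + σ u) + (1 - e) * (σ s + σ u * s)) =
      e * (u + u * σ u) + (1 - e) * (u * σ s + (u * σ u) * s) := by ring
    rw [h1, hu]
    ring
  have hunit : IsUnit v := by
    by_contra hnu
    obtain ⟨P, hP, hvP⟩ := exists_max_ideal_of_mem_nonunits hnu
    have hPp : P.IsPrime := hP.isPrime
    have h0 : e * (1 - e) ∈ P := by
      have : e * (1 - e) = 0 := by rw [mul_sub, mul_one, he, sub_self]
      rw [this]; exact P.zero_mem
    rcases hPp.mem_or_mem h0 with h | h
    · -- e ∈ P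
      have h1 : 1 + (u : R) ∈ P := hPp.mem_of_pow_mem N h
      have h2 : s - σ s = v - e * (1 + u) + e * (s + u * σ s) - (1 + u) * σ s := by rw [hv]; ring
      have h3 : s - σ s ∈ P := by
        rw [h2]
        refine P.sub_mem (P.add_mem (P.sub_mem hvP (P.mul_mem_right _ h)) (P.mul_mem_right _ h)) (P.mul_mem_right _ h1)
      exact hP.ne_top (P.eq_top_of_isUnit_mem h3 hs)
    · -- 1 - e ∈ P
      have h1 : e * (1 + u) ∈ P := by
        have : e * (1 + u) = v - (1 - e) * (s + u * σ s) := by rw [hv]; ring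
        rw [this]
        exact P.sub_mem hvP (P.mul_mem_right _ h)
      have h2 : e ∈ P := by
        rcases hPp.mem_or_mem h1 with h3 | h3
        · exact h3
        · exact Ideal.pow_mem_of_mem P h3 N hN
      have h3 : (1 : R) ∈ P := by
        have : (1 : R) = (1 - e) + e := by ring
        rw [this]
        exact P.add_mem h h2
      exact hP.ne_top ((P.eq_top_iff_one).2 h3)
  obtain ⟨v', hv'⟩ := hunit
  exact ⟨v', by rw [hv']; exact hveq⟩

include hσ hs in
/-- **norms of finite commutative rings with involution** -/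
theorem norm_surj [Finite R] (S : R) (hS : IsUnit S) (hSσ : σ S = S) : ∃ t : Rˣ, (t : R) * σ t = S := by
  obtain ⟨S, rfl⟩ := hS
  let τ : Rˣ →* Rˣ := Units.map (σ : R →* R)
  have hτ : ∀ u : Rˣ, ((τ u : Rˣ) : R) = σ u := fun u => rfl
  let Nm : Rˣ →* Rˣ := MonoidHom.id Rˣ * τ
  let φ : Rˣ →* Rˣ := MonoidHom.id Rˣ / τ
  have hfin : Finite Rˣ := inferInstance
  have h1 : φ.range = Nm.ker := by
    ext u
    constructor
    · rintro ⟨v, rfl⟩
      rw [MonoidHom.mem_ker]
      change (v / τ v) * τ (v / τ v) = 1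
      have h2 : τ (τ v) = v := Units.ext (hσ v)
      rw [map_div, h2]
      exact div_mul_div_cancel _ _ _ |>.trans (div_self' _)
    · intro hu
      rw [MonoidHom.mem_ker] at hu
      have hu' : (u : R) * σ u = 1 := congrArg Units.val (show u * τ u = 1 from hu)
      obtain ⟨v, hv⟩ := hilbert90_star σ hσ s hs u hu'
      refine ⟨v, ?_⟩
      change v / τ v = u
      rw [div_eq_iff_eq_mul]
      exact Units.ext hv
  have h2 : Nm.range ≤ φ.ker := by
    rintro _ ⟨v, rfl⟩
    rw [MonoidHom.mem_ker]
    change (v * τ v) / τ (v * τ v) = 1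
    have h2 : τ (τ v) = v := Units.ext (hσ v)
    rw [map_mul, h2, mul_comm (τ v), div_self']
  have hc1 : Nat.card Nm.ker * Nat.card Nm.range = Nat.card Rˣ := by
    rw [← Subgroup.index_ker, Subgroup.card_mul_index]
  have hc2 : Nat.card φ.ker * Nat.card φ.range = Nat.card Rˣ := by
    rw [← Subgroup.index_ker, Subgroup.card_mul_index]
  have h3 : Nm.range = φ.ker := by
    apply Subgroup.eq_of_le_of_card_ge h2
    rw [h1, ← hc1, mul_comm] at hc2
    exact (Nat.eq_of_mul_eq_mul_left (Nat.card_pos (α := Nm.ker)) hc2).le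
  have h4 : S ∈ φ.ker := by
    rw [MonoidHom.mem_ker]
    change S / τ S = 1
    rw [div_eq_one]
    exact (Units.ext hSσ.symm)
  rw [← h3] at h4
  obtain ⟨t, ht⟩ := h4
  exact ⟨t, congrArg Units.val ht⟩

end

end Cfsg.Agent.Iso44
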