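import Cfsg.Agent.Iso44.OR

/-!
Counting classes of elements of odd prime order in orthogonal groups of even dimension.
-/

set_option autoImplicit false

universe u

namespace Cfsg.Agent.Iso44

open QuadraticMap Module Cfsg.Agent.Orth

open Classical in
theorem count_even {F : Type u} [Field F] [Fintype F] {p q : ℕ} [Fact p.Prime] [CharP F p] (hF : Fintype.card F = q)
    {V : Type u} [AddCommGroup V] [Module F V] [FiniteDimensional F V] {Q : QuadraticForm F V} (hQ : (polarBilin Q).Nondegenerate)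
    {m r i t : ℕ} (hV : finrank F V = 2 * m) (hm : 1 ≤ m) (hr : r.Prime) (hr2 : r ≠ 2) (hrp : r ≠ p) (hi : i = orderOf (q : ZMod r))
    (ht : t * i = r - 1) (ψ : AddChar F ℂ) (hψ : ψ.IsPrimitive) {τ : ℂ} (hτ : τ * τ = 1) (hga : ga ψ Q = τ * (Nat.card F : ℂ) ^ m) :
    Nat.card {C : ConjClasses ↥(OGrp Q) // ∃ g : ↥(OGrp Q), ConjClasses.mk g = C ∧ orderOf g = r} =
      if Odd i then Nat.choose (m / i + t / 2) (t / 2) - 1 - (if i ∣ m ∧ ¬ (τ = 1) then Nat.choose (m / i + t / 2 - 1) (t / 2 - 1) else 0)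
      else Nat.choose (2 * m / i + t) t - 1 -
        (if i ∣ 2 * m ∧ ¬ (τ = (-1) ^ (2 * m / i)) then Nat.choose (2 * m / i + t - 1) (t - 1) else 0) := by
  haveI : Fact r.Prime := ⟨hr⟩
  have hqr : (q : ZMod r) ≠ 0 := qr_ne_zero hF hrp
  have hrF : (r : F) ≠ 0 := rF_ne_zero hr hrp
  obtain ⟨ζ, hζ⟩ := exists_zeta (F := F) (r := r) hrF
  obtain ⟨w, hw, hwo⟩ := exists_w hr2 hqr
  rw [← hi] at hwo
  have hq : Nat.card F = q := by rw [Nat.card_eq_fintype_card, hF]
  have hodd : Odd r := hr.odd_of_ne_two hr2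
  have hi0 : 0 < i := by
    rcases Nat.eq_zero_or_pos i with h | h
    · rw [h, mul_zero] at ht
      have := hr.two_le
      omega
    · exact h
  obtain ⟨k, ε, hk, hε, hcase⟩ : ∃ (k : ℕ) (ε : ℂ), orderOf w = 2 * k ∧ ((ε = 1 ∧ (q : ZMod r) ^ k = 1) ∨ (ε = -1 ∧ (q : ZMod r) ^ k = -1)) ∧
      (if Odd i then k = i ∧ ε = 1 else i = 2 * k ∧ ε = -1) := by
    split_ifs at hwo with h
    · refine ⟨i, 1, hwo, Or.inl ⟨rfl, by rw [hi]; exact pow_orderOf_eq_one _⟩, ?_⟩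
      rw [if_pos h]; exact ⟨rfl, rfl⟩
    · have h' := h
      rw [Nat.not_odd_iff_even] at h'
      obtain ⟨k, hk⟩ := h'
      have hik : i = 2 * k := by omega
      refine ⟨k, -1, by rw [hwo, hik], Or.inr ⟨rfl, ?_⟩, by rw [if_neg h]; exact ⟨hik, rfl⟩⟩
      have h1 : orderOf (Units.mk0 (q : ZMod r) hqr) = 2 * k := by
        rw [← orderOf_units, Units.val_mk0, ← hi, hik]
      have h2 := pow_half (by omega) h1
      have h3 := congrArg Units.val h2
      rw [Units.val_pow_eq_pow_val, Units.val_mk0] at h3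
      exact h3
  have hk0 : 1 ≤ k := by
    have := orderOf_pos w
    omega
  have hεε : ε * ε = 1 := by rcases hε with ⟨h, _⟩ | ⟨h, _⟩ <;> rw [h] <;> norm_num
  have hb : Nat.card (Subgroup.zpowers w) = 2 * k := by rw [Nat.card_zpowers, hk]
  have hν := card_quot_mul (Subgroup.zpowers w)
  obtain ⟨U, _, _, _, QU, hU, hQU, hgU, g0, hg0, hgr0, hg01⟩ := o_block ψ hψ hq hk0 hε
  have hq1 : (Nat.card F : ℂ) ^ m ≠ 0 := pow_ne_zero _ (Nat.cast_ne_zero.2 Nat.card_pos.ne')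
  rw [count_G hζ (Subgroup.zpowers w) (OGrp Q) (τ = ε ^ (m / k))]
  · rw [hV, hb, Nat.mul_div_mul_left _ _ (by norm_num : 0 < 2)]
    have hdvd : (2 * k ∣ 2 * m) ↔ (k ∣ m) := Nat.mul_dvd_mul_iff_left (by norm_num : 0 < 2)
    simp only [hdvd]
    rw [hb] at hν
    by_cases h : Odd i
    · rw [if_pos h] at hcase ⊢
      obtain ⟨hk1, hε1⟩ := hcase
      have e1 : t / 2 = Fintype.card ((ZMod r)ˣ ⧸ Subgroup.zpowers w) := by
        have h3 : t * i = (Fintype.card ((ZMod r)ˣ ⧸ Subgroup.zpowers w) * 2) * i := by rw [ht, ← hν, hk1]; ring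
        have h4 := Nat.eq_of_mul_eq_mul_right hi0 h3
        omega
      simp only [hk1, hε1, one_pow, e1]
    · rw [if_neg h] at hcase ⊢
      obtain ⟨hk1, hε1⟩ := hcase
      have e1 : t = Fintype.card ((ZMod r)ˣ ⧸ Subgroup.zpowers w) :=
        Nat.eq_of_mul_eq_mul_right hi0 (by rw [ht, ← hν, hk1])
      have e2 : 2 * m / i = m / k := by rw [hk1, Nat.mul_div_mul_left _ _ (by norm_num : 0 < 2)]
      have e3 : (i ∣ 2 * m) ↔ (k ∣ m) := by rw [hk1]; exact hdvd
      simp only [e2, e3, hε1, e1]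
  · intro g hg g' hg' hgr hgr' P hP
    exact conj_quad hrF hodd hQ hg hg' hgr hP
  · intro g hg hgr
    exact inv_isom hζ (polarBilin Q) hQ hq hqr hw g (isom_pres hg) hgr
  · intro g hg hgr h0
    obtain ⟨S, hS1, hS2⟩ := o_obs hζ hr2 ψ hψ hq hqr hw hk hU hQU hεε hgU hg0 hgr0 hg01 hQ hV hg hgr h0
    rw [hga] at hS2
    rw [hS1, Nat.mul_div_cancel_left _ (by omega)]
    exact mul_right_cancel₀ hq1 hS2
  · intro x a hx hx0
    rw [hb, hV] at hx
    refine o_real hζ ψ hψ hq hqr hw hk hU hQU hεε hgU hg0 hgr0 hg01 _ V Q m x a τ hQ hV hτ hga rfl hx (fun h => ?_)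
    rw [hx0 h]
    congr 1
    subst h
    rw [zero_add] at hx
    have h2 : m = k * ∑ c, a c := by
      have : 2 * (k * ∑ c, a c) = 2 * m := by rw [← hx]; ring
      omega
    rw [h2, Nat.mul_div_cancel_left _ (by omega)]
  · right; omega

end Cfsg.Agent.Iso44
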