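import Cfsg.Agent.Iso44.OCnt
import Cfsg.Agent.Orth.Diag

/-!
Counting classes of elements of odd prime order in orthogonal groups of odd dimension.
-/

set_option autoImplicit false

universe u

namespace Cfsg.Agent.Iso44

open QuadraticMap Module Cfsg.Agent.Orth

theorem exists_comp_odd {F : Type u} [Field F] [Finite F] (h2 : (2 : F) ≠ 0) {V U : Type u} [AddCommGroup V] [Module F V] [FiniteDimensional F V]
    [AddCommGroup U] [Module F U] [FiniteDimensional F U] {Q : QuadraticForm F V} (hQ : (polarBilin Q).Nondegenerate)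
    {QU : QuadraticForm F U} (hQU : (polarBilin QU).Nondegenerate) {m k : ℕ} (hk : k ≤ m) (hV : finrank F V = 2 * m + 1)
    (hU : finrank F U = 2 * k) :
    ∃ (W : Type u) (_ : AddCommGroup W) (_ : Module F W) (_ : FiniteDimensional F W) (QW : QuadraticForm F W),
      finrank F W = 2 * (m - k) + 1 ∧ (polarBilin QW).Nondegenerate ∧ ∃ e : V ≃ₗ[F] U × W, ∀ v, (QU.prod QW) (e v) = Q v := by
  classical
  have : Fintype F := Fintype.ofFinite F
  have hW0 : finrank F (Unit ⊕ (Fin (m - k) ⊕ Fin (m - k)) → F) = 2 * (m - k) + 1 := by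
    rw [finrank_fintype_fun_eq_card, Fintype.card_sum, Fintype.card_sum, Fintype.card_fin, Fintype.card_unit]; ring
  set W := (Unit ⊕ (Fin (m - k) ⊕ Fin (m - k)) → F) with hWdef
  have hW : finrank F W = 2 * (m - k) + 1 := hW0
  set QW : QuadraticForm F W := qfOdd (m - k) F with hQWdef
  have hQW : (polarBilin QW).Nondegenerate := qfOdd_nondegenerate (m - k) F h2
  set b := finBasis F V
  set bU := finBasis F U
  set bW := finBasis F W
  have hprod : ∀ QW : QuadraticForm F W, (gram (QU.prod QW) (bU.prod bW)).det = (gram QU bU).det * (gram QW bW).det := by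
    intro QW
    have h1 : gram (QU.prod QW) (bU.prod bW) = Matrix.fromBlocks (gram QU bU) 0 0 (gram QW bW) := by
      ext i j
      rw [gram, Matrix.of_apply, polar_prod]
      rcases i with i | i <;> rcases j with j | j
      · simp [gram, Basis.prod_apply_inl_fst, Basis.prod_apply_inl_snd]
      · simp [gram, Basis.prod_apply_inl_fst, Basis.prod_apply_inl_snd]
      · simp [gram, Basis.prod_apply_inl_fst, Basis.prod_apply_inl_snd]
      · simp [gram, Basis.prod_apply_inl_fst, Basis.prod_apply_inl_snd]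
    rw [h1, Matrix.det_fromBlocks_zero₂₁]
  have hdim : finrank F V = finrank F (U × W) := by rw [finrank_prod, hU, hW, hV]; omega
  by_cases hsq : IsSquare ((gram Q b).det * (gram (QU.prod QW) (bU.prod bW)).det)
  · obtain ⟨e, he⟩ := exists_isom_of_disc h2 hQ (prod_nondeg hQU hQW) hdim b (bU.prod bW) hsq
    exact ⟨W, inferInstance, inferInstance, inferInstance, QW, hW, hQW, e, he⟩
  · obtain ⟨l, hl⟩ := FiniteField.exists_nonsquare (F := F) (by
      intro h
      apply h2
      have := (CharP.ringChar_of_prime_eq_zero (R := F) Nat.prime_two)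
      have h3 : CharP F 2 := by rw [← h]; exact ringChar.charP F
      have h4 := CharP.cast_eq_zero F 2
      exact_mod_cast h4)
    have hl0 : l ≠ 0 := by
      rintro rfl
      exact hl (IsSquare.zero)
    set QW' : QuadraticForm F W := l • QW with hQW'def
    have hQW'a : ∀ v, QW' v = l * QW v := fun v => rfl
    have hpol : ∀ x y, polarBilin QW' x y = l * polarBilin QW x y := by
      intro x y
      show QW' (x + y) - QW' x - QW' y = l * (QW (x + y) - QW x - QW y)
      rw [hQW'a, hQW'a, hQW'a]; ring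
    have hQW' : (polarBilin QW').Nondegenerate := by
      constructor
      · intro x hx
        apply hQW.1
        intro y
        have := hx y
        rw [hpol] at this
        exact (mul_eq_zero.1 this).resolve_left hl0
      · intro x hx
        apply hQW.2
        intro y
        have := hx y
        rw [hpol] at this
        exact (mul_eq_zero.1 this).resolve_left hl0
    have hg : gram QW' bW = l • gram QW bW := by
      ext i j
      rw [gram, Matrix.of_apply, Matrix.smul_apply, gram, Matrix.of_apply]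
      exact hpol _ _
    have hdet : (gram QW' bW).det = l ^ (2 * (m - k) + 1) * (gram QW bW).det := by
      rw [hg, Matrix.det_smul, Fintype.card_fin]
      congr 1
      rw [hW]
    obtain ⟨e, he⟩ := exists_isom_of_disc h2 hQ (prod_nondeg hQU hQW') hdim b (bU.prod bW) (by
      rw [hprod, hdet]
      rw [hprod] at hsq
      have e1 : (gram Q b).det * ((gram QU bU).det * (l ^ (2 * (m - k) + 1) * (gram QW bW).det)) =
          (l ^ (m - k)) ^ 2 * (l * ((gram Q b).det * ((gram QU bU).det * (gram QW bW).det))) := by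
        rw [pow_succ, pow_mul']; ring
      rw [e1]
      exact (IsSquare.sq _).mul (isSquare_mul_of_not hl hsq))
    exact ⟨W, inferInstance, inferInstance, inferInstance, QW', hW, hQW', e, he⟩

section
variable {r : ℕ} [hr : Fact r.Prime] {E : Type*} [Field E] {F : Type u} [Field F] [Finite F] [Algebra F E]
variable {ζ : E} (hζ : IsPrimitiveRoot ζ r) [IsAlgClosed E]
include hζ

/-- realization in odd dimension -/
theorem o_real_odd (h2 : (2 : F) ≠ 0) {q : ℕ} (hq : Nat.card F = q) (hqr : (q : ZMod r) ≠ 0) {w : (ZMod r)ˣ}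
    (hw : (w : ZMod r) = q ∨ (w : ZMod r) = -q)
    {k : ℕ} (hk : orderOf w = 2 * k) {U : Type u} [AddCommGroup U] [Module F U] [FiniteDimensional F U] {QU : QuadraticForm F U}
    (hU : finrank F U = 2 * k) (hQU : (polarBilin QU).Nondegenerate)
    {g0 : U ≃ₗ[F] U} (hg0 : g0 ∈ OGrp QU) (hgr0 : g0 ^ r = 1) (hg01 : g0 ≠ 1) :
    ∀ (S : ℕ) (V : Type u) [AddCommGroup V] [Module F V] [FiniteDimensional F V] (Q : QuadraticForm F V) (m x : ℕ)
      (a : (ZMod r)ˣ ⧸ Subgroup.zpowers w → ℕ), (polarBilin Q).Nondegenerate → finrank F V = 2 * m + 1 →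
      ∑ c, a c = S → x + 2 * k * S = 2 * m + 1 →
      ∃ g ∈ OGrp Q, g ^ r = 1 ∧ (mult ζ (g : End F V) : ZMod r → ℕ) = T (Subgroup.zpowers w) x a := by
  have : Fintype F := Fintype.ofFinite F
  have hb : Nat.card (Subgroup.zpowers w) = 2 * k := by rw [Nat.card_zpowers, hk]
  have hk0 : 0 < k := by
    have := orderOf_pos w
    omega
  intro S
  induction S with
  | zero =>
    intro V _ _ _ Q m x a hQ hV ha hx
    refine ⟨1, one_mem _, one_pow _, ?_⟩
    have ha0 : a = 0 := by
      funext c
      exact Finset.sum_eq_zero_iff.1 ha c (Finset.mem_univ _)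
    have h1 := mult_one_eq (K := F) (V := V) hζ (Subgroup.zpowers w)
    rw [hV] at h1
    rw [ha0, show x = 2 * m + 1 by omega]
    exact h1
  | succ S ih =>
    intro V _ _ _ Q m x a hQ hV ha hx
    obtain ⟨c, -, hc⟩ : ∃ c ∈ Finset.univ, a c ≠ 0 := by
      apply Finset.exists_ne_zero_of_sum_ne_zero
      rw [ha]; omega
    set a' : (ZMod r)ˣ ⧸ Subgroup.zpowers w → ℕ := fun d => a d - (Pi.single c 1 : _ → ℕ) d with ha'
    have haa : a = Pi.single c 1 + a' := by
      funext d
      rw [Pi.add_apply, ha']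
      by_cases hd : d = c
      · subst hd; simp only [Pi.single_eq_same]; omega
      · simp only [Pi.single_eq_of_ne hd]; omega
    have hS : ∑ d, a' d = S := by
      have h1 : ∑ d, a d = ∑ d, (Pi.single c 1 : _ → ℕ) d + ∑ d, a' d := by
        rw [← Finset.sum_add_distrib]
        exact Finset.sum_congr rfl fun d _ => congrFun haa d
      rw [ha, Finset.sum_pi_single' c 1 Finset.univ, if_pos (Finset.mem_univ _)] at h1
      omega
    have e1 : 2 * k * (S + 1) = 2 * k * S + 2 * k := by ring
    have e2 : 2 * (k * S) = 2 * k * S := by ring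
    have hkm : k ≤ m := by omega
    obtain ⟨W, _, _, _, QW, hW, hQW, e, he⟩ := exists_comp_odd h2 hQ hQU hkm hV hU
    obtain ⟨g', hg', hgr', hm'⟩ := ih W QW (m - k) x a' hQW hW hS (by omega)
    have hinv0 := inv_isom hζ (polarBilin QU) hQU hq hqr hw g0 (isom_pres hg0) hgr0
    obtain ⟨l, hl⟩ := block hζ (Subgroup.zpowers w) (g0 : End F U) (coe_pow_one hgr0) (by
      intro h
      apply hg01
      ext x
      exact congrArg (fun f : End F U => f x) h) (by rw [hU, hb]) hinv0 c
    obtain ⟨h, hh, hhr, hhm⟩ := glue (r := r) hζ e he (g := g0 ^ l) (pow_mem hg0 l) hg' (by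
      rw [← pow_mul, mul_comm, pow_mul, hgr0, one_pow]) hgr'
    refine ⟨h, hh, hhr, ?_⟩
    rw [hhm, coe_pow_equiv, hl, hm', T_add, zero_add, ← haa]

end

theorem count_odd {F : Type u} [Field F] [Fintype F] {p q : ℕ} [Fact p.Prime] [CharP F p] (hF : Fintype.card F = q) (h2 : (2 : F) ≠ 0)
    {V : Type u} [AddCommGroup V] [Module F V] [FiniteDimensional F V] {Q : QuadraticForm F V} (hQ : (polarBilin Q).Nondegenerate)
    {m r i t : ℕ} (hV : finrank F V = 2 * m + 1) (hr : r.Prime) (hr2 : r ≠ 2) (hrp : r ≠ p) (hi : i = orderOf (q : ZMod r))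
    (ht : t * i = r - 1) (ψ : AddChar F ℂ) (hψ : ψ.IsPrimitive) :
    Nat.card {C : ConjClasses ↥(OGrp Q) // ∃ g : ↥(OGrp Q), ConjClasses.mk g = C ∧ orderOf g = r} =
      if Odd i then Nat.choose (m / i + t / 2) (t / 2) - 1 else Nat.choose ((2 * m + 1) / i + t) t - 1 := by
  haveI : Fact r.Prime := ⟨hr⟩
  have hqr : (q : ZMod r) ≠ 0 := qr_ne_zero hF hrp
  have hrF : (r : F) ≠ 0 := rF_ne_zero hr hrp
  obtain ⟨ζ, hζ⟩ := exists_zeta (F := F) (r := r) hrF
  obtain ⟨w, hw, hwo⟩ := exists_w hr2 hqr
  rw [← hi] at hwo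
  have hq : Nat.card F = q := by rw [Nat.card_eq_fintype_card, hF]
  have hodd : Odd r := hr.odd_of_ne_two hr2
  have hi0 : 0 < i := by
    rcases Nat.eq_zero_or_pos i with h | h
    · rw [h, mul_zero] at ht
      have := hr.two_le
      omega
    · exact h
  obtain ⟨k, ε, hk, hε, hcase⟩ : ∃ (k : ℕ) (ε : ℂ), orderOf w = 2 * k ∧ ((ε = 1 ∧ (q : ZMod r) ^ k = 1) ∨ (ε = -1 ∧ (q : ZMod r) ^ k = -1)) ∧
      (if Odd i then k = i else i = 2 * k) := by
    split_ifs at hwo with h
    · refine ⟨i, 1, hwo, Or.inl ⟨rfl, by rw [hi]; exact pow_orderOf_eq_one _⟩, ?_⟩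
      rw [if_pos h]
    · have h' := h
      rw [Nat.not_odd_iff_even] at h'
      obtain ⟨k, hk⟩ := h'
      have hik : i = 2 * k := by omega
      refine ⟨k, -1, by rw [hwo, hik], Or.inr ⟨rfl, ?_⟩, by rw [if_neg h]; exact hik⟩
      have h1 : orderOf (Units.mk0 (q : ZMod r) hqr) = 2 * k := by
        rw [← orderOf_units, Units.val_mk0, ← hi, hik]
      have h2 := pow_half (by omega) h1
      have h3 := congrArg Units.val h2
      rw [Units.val_pow_eq_pow_val, Units.val_mk0] at h3
      exact h3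
  have hk0 : 1 ≤ k := by
    have := orderOf_pos w
    omega
  have hb : Nat.card (Subgroup.zpowers w) = 2 * k := by rw [Nat.card_zpowers, hk]
  have hν := card_quot_mul (Subgroup.zpowers w)
  obtain ⟨U, _, _, _, QU, hU, hQU, hgU, g0, hg0, hgr0, hg01⟩ := o_block ψ hψ hq hk0 hε
  rw [count_G hζ (Subgroup.zpowers w) (OGrp Q) True]
  · rw [if_neg (by simp), Nat.sub_zero, hV, hb]
    rw [hb] at hν
    by_cases h : Odd i
    · rw [if_pos h] at hcase ⊢
      have e1 : t / 2 = Fintype.card ((ZMod r)ˣ ⧸ Subgroup.zpowers w) := by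
        have h3 : t * i = (Fintype.card ((ZMod r)ˣ ⧸ Subgroup.zpowers w) * 2) * i := by rw [ht, ← hν, hcase]; ring
        have h4 := Nat.eq_of_mul_eq_mul_right hi0 h3
        omega
      have e2 : (2 * m + 1) / (2 * k) = m / k := by
        rw [← Nat.div_div_eq_div_mul]
        congr 1
        omega
      rw [e2, e1, hcase]
    · rw [if_neg h] at hcase ⊢
      have e1 : t = Fintype.card ((ZMod r)ˣ ⧸ Subgroup.zpowers w) :=
        Nat.eq_of_mul_eq_mul_right hi0 (by rw [ht, ← hν, hcase])
      rw [← e1, hcase]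
  · intro g hg g' hg' hgr hgr' P hP
    exact conj_quad hrF hodd hQ hg hg' hgr hP
  · intro g hg hgr
    exact inv_isom hζ (polarBilin Q) hQ hq hqr hw g (isom_pres hg) hgr
  · intro _ _ _ _; trivial
  · intro x a hx _
    rw [hb, hV] at hx
    exact o_real_odd hζ h2 hq hqr hw hk hU hQU hg0 hgr0 hg01 _ V Q m x a hQ hV rfl hx
  · exact Or.inl trivial

end Cfsg.Agent.Iso44
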