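import Cfsg.Agent.Iso44.Gau
import Cfsg.Agent.Iso44.GuR
import Cfsg.Agent.Iso44.Conj

/-!
Realizing multiplicity functions by orthogonal isometries.
-/

set_option autoImplicit false

universe u

namespace Cfsg.Agent.Iso44

open QuadraticMap Module Cfsg.Agent.Orth

variable {r : ℕ} [hr : Fact r.Prime] {E : Type*} [Field E] {F : Type u} [Field F] [Finite F] [Algebra F E]
variable {ζ : E} (hζ : IsPrimitiveRoot ζ r) [IsAlgClosed E]

section elt
omit [Algebra F E] [IsAlgClosed E] [Field E]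

theorem elt_of_dvd {G : Type*} [Group G] [Finite G] (h : r ∣ Nat.card G) : ∃ g : G, g ^ r = 1 ∧ g ≠ 1 := by
  obtain ⟨g, hg⟩ := exists_prime_orderOf_dvd_card' r h
  refine ⟨g, by rw [← hg]; exact pow_orderOf_eq_one g, ?_⟩
  rintro rfl
  rw [orderOf_one] at hg
  exact hr.out.one_lt.ne hg

theorem o_elt {ι : Type} [Fintype ι] [DecidableEq ι] (Q : QuadraticForm F (ι → F)) (h : r ∣ Nat.card (Cfsg.isometryGroup F ⇑Q)) :
    ∃ g ∈ OGrp Q, g ^ r = 1 ∧ g ≠ 1 := by
  have : Finite (Cfsg.isometryGroup F ⇑Q) := inferInstance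
  obtain ⟨g, hg, hg1⟩ := elt_of_dvd h
  refine ⟨(bridge Q g : OGrp Q), (bridge Q g).2, ?_, ?_⟩
  · have h1 : (bridge Q g) ^ r = 1 := by rw [← map_pow, hg, map_one]
    exact congrArg Subtype.val h1
  · intro h1
    apply hg1
    apply (bridge Q).injective
    rw [map_one]
    exact Subtype.ext h1

/-- blocks of given type -/
theorem o_block (ψ : AddChar F ℂ) (hψ : ψ.IsPrimitive) {q : ℕ} (hq : Nat.card F = q) {k : ℕ} (hk : 1 ≤ k) {ε : ℂ}
    (hε : (ε = 1 ∧ (q : ZMod r) ^ k = 1) ∨ (ε = -1 ∧ (q : ZMod r) ^ k = -1)) :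
    ∃ (U : Type u) (_ : AddCommGroup U) (_ : Module F U) (_ : FiniteDimensional F U) (Q : QuadraticForm F U),
      finrank F U = 2 * k ∧ (polarBilin Q).Nondegenerate ∧ ga ψ Q = ε * (Nat.card F : ℂ) ^ k ∧
        ∃ g ∈ OGrp Q, g ^ r = 1 ∧ g ≠ 1 := by
  have hq0 : 0 < q := by rw [← hq]; exact Nat.card_pos
  rcases hε with ⟨rfl, h⟩ | ⟨rfl, h⟩
  · refine ⟨(Fin k ⊕ Fin k → F), inferInstance, inferInstance, inferInstance, qfPlus k F, finrank_V k F, qfPlus_nondegenerate k F, ?_, ?_⟩
    · rw [ga_plus ψ hψ, one_mul]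
    · apply o_elt
      rw [coe_qfPlus, OrthCount.order_plus k hk, hq]
      exact Dvd.dvd.mul_right (Dvd.dvd.mul_left (dvd_pow_sub_one hq0 h) _) _
  · obtain ⟨z, hz⟩ := exists_zeta_elliptic (F := F)
    obtain ⟨m', rfl⟩ : ∃ m', k = m' + 1 := ⟨k - 1, by omega⟩
    refine ⟨((Fin m' ⊕ Fin m') ⊕ Fin 2 → F), inferInstance, inferInstance, inferInstance, qfMinus m' F 1 z, ?_,
      qfMinus_nondegenerate m' F (disc_ne_zero_of_aniso (aniso_of_root hz)), ?_, ?_⟩
    · rw [finrank_fintype_fun_eq_card, Fintype.card_sum, Fintype.card_sum, Fintype.card_fin, Fintype.card_fin]; ring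
    · rw [ga_minus ψ hψ m' (aniso_of_root hz)]; ring
    · apply o_elt
      rw [coe_qfMinus, OrthCount.order_minus m' (OrthCount.aniso_of (aniso_of_root hz)), hq]
      refine Dvd.dvd.mul_right (Dvd.dvd.mul_left ?_ _) _
      rw [← ZMod.natCast_eq_zero_iff]
      push_cast
      rw [h]; ring

end elt

theorem prod_nondeg {V W : Type*} [AddCommGroup V] [Module F V] [AddCommGroup W] [Module F W] {Q : QuadraticForm F V} {Q' : QuadraticForm F W}
    (hQ : (polarBilin Q).Nondegenerate) (hQ' : (polarBilin Q').Nondegenerate) : (polarBilin (Q.prod Q')).Nondegenerate := by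
  have e : ∀ x y : V × W, polarBilin (Q.prod Q') x y = polarBilin Q x.1 y.1 + polarBilin Q' x.2 y.2 := by
    intro x y
    exact polar_prod Q Q' x y
  constructor
  · intro x hx
    apply Prod.ext
    · apply hQ.1
      intro y
      have := hx (y, 0)
      rw [e] at this
      simpa using this
    · apply hQ'.1
      intro y
      have := hx (0, y)
      rw [e] at this
      simpa using this
  · intro x hx
    apply Prod.ext
    · apply hQ.2
      intro y
      have := hx (y, 0)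
      rw [e] at this
      simpa using this
    · apply hQ'.2
      intro y
      have := hx (0, y)
      rw [e] at this
      simpa using this

theorem ga_prod' (ψ : AddChar F ℂ) {V W : Type*} [AddCommGroup V] [Module F V] [FiniteDimensional F V] [AddCommGroup W] [Module F W]
    [FiniteDimensional F W] (Q : QuadraticForm F V) (Q' : QuadraticForm F W) : ga ψ (Q.prod Q') = ga ψ Q * ga ψ Q' := by
  have : Finite V := Module.finite_of_finite F
  have : Finite W := Module.finite_of_finite F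
  rw [← ga_prod]
  congr 1

theorem isom_pres {V : Type*} [AddCommGroup V] [Module F V] {Q : QuadraticForm F V} {g : V ≃ₗ[F] V} (hg : g ∈ OGrp Q) (x y : V) :
    polarBilin Q (g x) (g y) = polarBilin Q x y := by
  have h : ∀ x, Q (g x) = Q x := hg
  have e : ∀ x y, polarBilin Q x y = Q (x + y) - Q x - Q y := fun x y => rfl
  rw [e, e, ← map_add, h, h, h]

include hζ

/-- gluing -/
theorem glue {V U W : Type u} [AddCommGroup V] [Module F V] [FiniteDimensional F V] [AddCommGroup U] [Module F U] [FiniteDimensional F U]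
    [AddCommGroup W] [Module F W] [FiniteDimensional F W] {Q : QuadraticForm F V} {QU : QuadraticForm F U} {QW : QuadraticForm F W}
    (e : V ≃ₗ[F] U × W) (he : ∀ v, (QU.prod QW) (e v) = Q v) {g : U ≃ₗ[F] U} {g' : W ≃ₗ[F] W} (hg : g ∈ OGrp QU) (hg' : g' ∈ OGrp QW)
    (hgr : g ^ r = 1) (hgr' : g' ^ r = 1) :
    ∃ h ∈ OGrp Q, h ^ r = 1 ∧ (mult ζ (h : End F V) : ZMod r → ℕ) = mult ζ (g : End F U) + mult ζ (g' : End F W) := by
  have hg2 : ∀ x, QU (g x) = QU x := hg
  have hg2' : ∀ x, QW (g' x) = QW x := hg'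
  refine ⟨(e.trans (g.prodCongr g')).trans e.symm, ?_, ?_, ?_⟩
  · intro x
    rw [← he, ← he]
    simp only [LinearEquiv.trans_apply, e.apply_symm_apply]
    rw [QuadraticMap.prod_apply, QuadraticMap.prod_apply, LinearEquiv.prodCongr_apply, hg2, hg2']
  · have h1 : ∀ j : ℕ, ((e.trans (g.prodCongr g')).trans e.symm) ^ j = (e.trans ((g ^ j).prodCongr (g' ^ j))).trans e.symm := by
      intro j
      induction j with
      | zero => ext x; simp [LinearEquiv.prodCongr_apply]
      | succ j ihj =>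
        rw [pow_succ, ihj, pow_succ, pow_succ]
        ext x
        simp [LinearEquiv.prodCongr_apply, LinearEquiv.mul_apply]
    rw [h1, hgr, hgr']
    ext x
    simp [LinearEquiv.prodCongr_apply]
  · have h1 : (((e.trans (g.prodCongr g')).trans e.symm : V ≃ₗ[F] V) : End F V) =
        e.symm.conj (LinearMap.prodMap (g : End F U) (g' : End F W)) := by
      apply LinearMap.ext
      intro x
      rfl
    rw [h1, mult_conj, mult_prodMap]

/-- realization in even dimension -/
theorem o_real (ψ : AddChar F ℂ) (hψ : ψ.IsPrimitive) {q : ℕ} (hq : Nat.card F = q) (hqr : (q : ZMod r) ≠ 0) {w : (ZMod r)ˣ}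
    (hw : (w : ZMod r) = q ∨ (w : ZMod r) = -q)
    {k : ℕ} (hk : orderOf w = 2 * k) {U : Type u} [AddCommGroup U] [Module F U] [FiniteDimensional F U] {QU : QuadraticForm F U}
    (hU : finrank F U = 2 * k) (hQU : (polarBilin QU).Nondegenerate) {ε : ℂ} (hε : ε * ε = 1) (hgU : ga ψ QU = ε * (Nat.card F : ℂ) ^ k)
    {g0 : U ≃ₗ[F] U} (hg0 : g0 ∈ OGrp QU) (hgr0 : g0 ^ r = 1) (hg01 : g0 ≠ 1) :
    ∀ (S : ℕ) (V : Type u) [AddCommGroup V] [Module F V] [FiniteDimensional F V] (Q : QuadraticForm F V) (m x : ℕ)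
      (a : (ZMod r)ˣ ⧸ Subgroup.zpowers w → ℕ) (τ : ℂ), (polarBilin Q).Nondegenerate → finrank F V = 2 * m →
      τ * τ = 1 → ga ψ Q = τ * (Nat.card F : ℂ) ^ m → ∑ c, a c = S → x + 2 * k * S = 2 * m → (x = 0 → τ = ε ^ S) →
      ∃ g ∈ OGrp Q, g ^ r = 1 ∧ (mult ζ (g : End F V) : ZMod r → ℕ) = T (Subgroup.zpowers w) x a := by
  have : Fintype F := Fintype.ofFinite F
  have hb : Nat.card (Subgroup.zpowers w) = 2 * k := by rw [Nat.card_zpowers, hk]
  have hk0 : 0 < k := by
    have := orderOf_pos w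
    omega
  have hq1 : (Nat.card F : ℂ) ≠ 0 := Nat.cast_ne_zero.2 Nat.card_pos.ne'
  intro S
  induction S with
  | zero =>
    intro V _ _ _ Q m x a τ hQ hV hτ hga ha hx hx0
    refine ⟨1, one_mem _, one_pow _, ?_⟩
    have ha0 : a = 0 := by
      funext c
      exact Finset.sum_eq_zero_iff.1 ha c (Finset.mem_univ _)
    have h1 := mult_one_eq (K := F) (V := V) hζ (Subgroup.zpowers w)
    rw [hV] at h1
    rw [ha0, show x = 2 * m by omega]
    exact h1
  | succ S ih =>
    intro V _ _ _ Q m x a τ hQ hV hτ hga ha hx hx0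
    obtain ⟨c, -, hc⟩ : ∃ c ∈ Finset.univ, a c ≠ 0 := by
      apply Finset.exists_ne_zero_of_sum_ne_zero
      rw [ha]; omega
    set a' : (ZMod r)ˣ ⧸ Subgroup.zpowers w → ℕ := fun d => a d - (Pi.single c 1 : _ → ℕ) d with ha'
    have haa : a = Pi.single c 1 + a' := by
      funext d
      rw [Pi.add_apply, ha']
      by_cases hd : d = c
      · subst hd; simp only [Pi.single_eq_same]; omega
      · simp only [Pi.single_eq_of_ne hd]; omega
    have hS : ∑ d, a' d = S := by
      have h1 : ∑ d, a d = ∑ d, (Pi.single c 1 : _ → ℕ) d + ∑ d, a' d := by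
        rw [← Finset.sum_add_distrib]
        exact Finset.sum_congr rfl fun d _ => congrFun haa d
      rw [ha, Finset.sum_pi_single' c 1 Finset.univ, if_pos (Finset.mem_univ _)] at h1
      omega
    have e1 : 2 * k * (S + 1) = 2 * k * S + 2 * k := by ring
    have hτε : τ * ε = 1 ∨ (τ * ε = -1 ∧ 1 ≤ m - k) := by
      have h1 : (τ * ε) ^ 2 = 1 := by
        linear_combination (ε * ε) * hτ + hε
      rcases sq_eq_one_iff_of_ne_one h1 with h | h
      · exact Or.inl h
      · refine Or.inr ⟨h, ?_⟩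
        by_contra hc
        have h2 : m = k := by omega
        have h3 : S = 0 := by
          rw [h2] at hx
          rcases Nat.eq_zero_or_pos S with h0 | h0
          · exact h0
          · have : 2 * k * 1 ≤ 2 * k * S := Nat.mul_le_mul_left _ h0
            omega
        subst h3
        have h4 := hx0 (by omega)
        rw [zero_add, pow_one] at h4
        rw [h4, hε] at h
        norm_num at h
    obtain ⟨W, _, _, _, QW, hW, hQW, hgW⟩ := exists_space ψ hψ (m - k) hτε
    obtain ⟨g', hg', hgr', hm'⟩ := ih W QW (m - k) x a' (τ * ε) hQW hW (by linear_combination (ε * ε) * hτ + hε) hgW hS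
      (by omega) (fun h => by rw [hx0 h]; linear_combination (ε ^ S) * hε)
    have hinv0 := inv_isom hζ (polarBilin QU) hQU hq hqr hw g0 (isom_pres hg0) hgr0
    obtain ⟨l, hl⟩ := block hζ (Subgroup.zpowers w) (g0 : End F U) (coe_pow_one hgr0) (by
      intro h
      apply hg01
      ext x
      exact congrArg (fun f : End F U => f x) h) (by rw [hU, hb]) hinv0 c
    obtain ⟨e, he⟩ := isom_of_ga ψ hψ (m := m) hV (W := U × W) (by rw [finrank_prod, hU, hW]; omega) hQ (prod_nondeg hQU hQW) (by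
      rw [ga_prod', hga, hgU, hgW]
      have h5 : (Nat.card F : ℂ) ^ m = (Nat.card F : ℂ) ^ k * (Nat.card F : ℂ) ^ (m - k) := by
        rw [← pow_add]; congr 1; omega
      rw [h5]
      linear_combination (- (τ * (Nat.card F : ℂ) ^ k * (Nat.card F : ℂ) ^ (m - k))) * hε)
    obtain ⟨h, hh, hhr, hhm⟩ := glue (r := r) hζ e he (g := g0 ^ l) (pow_mem hg0 l) hg' (by
      rw [← pow_mul, mul_comm, pow_mul, hgr0, one_pow]) hgr'
    refine ⟨h, hh, hhr, ?_⟩
    rw [hhm, coe_pow_equiv, hl, hm', T_add, zero_add, ← haa]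
where
  sq_eq_one_iff_of_ne_one {a : ℂ} (h : a ^ 2 = 1) : a = 1 ∨ a = -1 := sq_eq_one_iff.1 h

/-- no fixed vectors -/
theorem surj_of_mult {V : Type*} [AddCommGroup V] [Module F V] [FiniteDimensional F V] (g : V ≃ₗ[F] V)
    (h0 : mult ζ (g : End F V) (0 : ZMod r) = 0) (v : V) : ∃ u, g u - u = v := by
  have hinj : Function.Injective (((g : End F V) - (1 : End F V) : End F V)) := by
    rw [← LinearMap.ker_eq_bot, LinearMap.ker_eq_bot']
    intro x hx
    by_contra hx0
    have h1 : (g : End F V) x = (1 : F) • x := by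
      rw [one_smul]
      exact sub_eq_zero.1 hx
    have h2 : End.HasEigenvalue (g : End F V) (1 : F) := End.hasEigenvalue_of_hasEigenvector (x := x) ⟨End.mem_eigenspace_iff.2 h1, hx0⟩
    have h3 := (End.hasEigenvalue_iff_isRoot_charpoly (g : End F V) 1).1 h2
    have h4 : ((g : End F V).charpoly.map (algebraMap F E)).IsRoot (rt ζ (0 : ZMod r)) := by
      rw [rt_zero hζ, ← map_one (algebraMap F E)]
      exact h3.map
    have h5 := (Polynomial.rootMultiplicity_pos ((g : End F V).charpoly_monic.map (algebraMap F E)).ne_zero).2 h4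
    rw [mult] at h0
    omega
  have hsurj := LinearMap.surjective_of_injective hinj
  obtain ⟨u, hu⟩ := hsurj v
  exact ⟨u, hu⟩

/-- the type obstruction -/
theorem o_obs (hr2 : r ≠ 2) (ψ : AddChar F ℂ) (hψ : ψ.IsPrimitive) {q : ℕ} (hq : Nat.card F = q) (hqr : (q : ZMod r) ≠ 0) {w : (ZMod r)ˣ}
    (hw : (w : ZMod r) = q ∨ (w : ZMod r) = -q)
    {k : ℕ} (hk : orderOf w = 2 * k) {U : Type u} [AddCommGroup U] [Module F U] [FiniteDimensional F U] {QU : QuadraticForm F U}
    (hU : finrank F U = 2 * k) (hQU : (polarBilin QU).Nondegenerate) {ε : ℂ} (hε : ε * ε = 1) (hgU : ga ψ QU = ε * (Nat.card F : ℂ) ^ k)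
    {g0 : U ≃ₗ[F] U} (hg0 : g0 ∈ OGrp QU) (hgr0 : g0 ^ r = 1) (hg01 : g0 ≠ 1)
    {V : Type u} [AddCommGroup V] [Module F V] [FiniteDimensional F V] {Q : QuadraticForm F V} {m : ℕ} (hQ : (polarBilin Q).Nondegenerate)
    (hV : finrank F V = 2 * m) {g : V ≃ₗ[F] V} (hg : g ∈ OGrp Q) (hgr : g ^ r = 1) (h0 : mult ζ (g : End F V) (0 : ZMod r) = 0) :
    ∃ S, m = k * S ∧ ga ψ Q = ε ^ S * (Nat.card F : ℂ) ^ m := by
  have : Fintype F := Fintype.ofFinite F
  have hrF : (r : F) ≠ 0 := by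
    have h1 := natCast_ne_zero_E (r := r) hζ
    intro h2
    apply h1
    rw [← map_natCast (algebraMap F E), h2, map_zero]
  have hb : Nat.card (Subgroup.zpowers w) = 2 * k := by rw [Nat.card_zpowers, hk]
  obtain ⟨x, a, hxa⟩ := exists_T _ (inv_isom hζ (polarBilin Q) hQ hq hqr hw g (isom_pres hg) hgr)
  have hx : x = 0 := by rw [← h0, hxa, T_zero]
  subst hx
  have hs := sum_mult hζ (g : End F V) (coe_pow_one hgr)
  rw [hxa, sum_T, hV, hb, zero_add] at hs
  set S := ∑ c, a c with hS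
  have hmS : m = k * S := by
    have : 2 * (k * S) = 2 * m := by rw [← hs]; ring
    omega
  refine ⟨S, hmS, ?_⟩
  have hεS : ε ^ S * ε ^ S = 1 := by rw [← mul_pow, hε, one_pow]
  have hτ : ε ^ S = 1 ∨ (ε ^ S = -1 ∧ 1 ≤ m) := by
    have h1 : (ε ^ S) ^ 2 = 1 := by rw [pow_two, hεS]
    rcases sq_eq_one_iff.1 h1 with h | h
    · exact Or.inl h
    · refine Or.inr ⟨h, ?_⟩
      by_contra hc
      have hm0 : m = 0 := by omega
      have hk0 : 0 < k := by
        have := orderOf_pos w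
        omega
      have hS0 : S = 0 := by
        rcases Nat.mul_eq_zero.1 (hmS.symm.trans hm0) with h | h
        · omega
        · exact h
      rw [hS0, pow_zero] at h
      norm_num at h
  obtain ⟨W, _, _, _, QW, hW, hQW, hgW⟩ := exists_space ψ hψ m hτ
  obtain ⟨g', hg', hgr', hm'⟩ := o_real hζ ψ hψ hq hqr hw hk hU hQU hε hgU hg0 hgr0 hg01 S W QW m 0 a (ε ^ S) hQW hW hεS hgW rfl
    (by rw [zero_add, ← hs]) (fun _ => rfl)
  obtain ⟨g1, hg1, hgr1, hm1, hg1a⟩ : ∃ g1 ∈ OGrp (Q.prod QW), g1 ^ r = 1 ∧ (mult ζ (g1 : End F (V × W)) : ZMod r → ℕ) = T (Subgroup.zpowers w) (2 * m) a ∧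
      ∀ p, g1 p = (g p.1, p.2) := by
    refine ⟨g.prodCongr (1 : W ≃ₗ[F] W), ?_, ?_, ?_, ?_⟩
    · intro p
      have hg2 : ∀ x, Q (g x) = Q x := hg
      rw [QuadraticMap.prod_apply, QuadraticMap.prod_apply, LinearEquiv.prodCongr_apply, hg2]
      rfl
    · have h1 : ∀ j : ℕ, (g.prodCongr (1 : W ≃ₗ[F] W)) ^ j = (g ^ j).prodCongr (1 : W ≃ₗ[F] W) := by
        intro j
        induction j with
        | zero => rw [pow_zero, pow_zero]; rfl
        | succ j ihj => rw [pow_succ, ihj, pow_succ]; rfl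
      rw [h1, hgr]; rfl
    · have h1 : ((g.prodCongr (1 : W ≃ₗ[F] W) : (V × W) ≃ₗ[F] (V × W)) : End F (V × W)) = LinearMap.prodMap (g : End F V) (1 : End F W) := rfl
      rw [h1, mult_prodMap, hxa, mult_one_eq (K := F) (V := W) hζ (Subgroup.zpowers w), T_add, hW, zero_add, add_zero]
    · intro p; rfl
  obtain ⟨g2, hg2, hgr2, hm2, hg2a⟩ : ∃ g2 ∈ OGrp (Q.prod QW), g2 ^ r = 1 ∧ (mult ζ (g2 : End F (V × W)) : ZMod r → ℕ) = T (Subgroup.zpowers w) (2 * m) a ∧
      ∀ p, g2 p = (p.1, g' p.2) := by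
    refine ⟨(1 : V ≃ₗ[F] V).prodCongr g', ?_, ?_, ?_, ?_⟩
    · intro p
      have hg2 : ∀ x, QW (g' x) = QW x := hg'
      rw [QuadraticMap.prod_apply, QuadraticMap.prod_apply, LinearEquiv.prodCongr_apply, hg2]
      rfl
    · have h1 : ∀ j : ℕ, ((1 : V ≃ₗ[F] V).prodCongr g') ^ j = (1 : V ≃ₗ[F] V).prodCongr (g' ^ j) := by
        intro j
        induction j with
        | zero => rw [pow_zero, pow_zero]; rfl
        | succ j ihj => rw [pow_succ, ihj, pow_succ]; rfl
      rw [h1, hgr']; rfl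
    · have h1 : (((1 : V ≃ₗ[F] V).prodCongr g' : (V × W) ≃ₗ[F] (V × W)) : End F (V × W)) = LinearMap.prodMap (1 : End F V) (g' : End F W) := rfl
      rw [h1, mult_prodMap, hm', mult_one_eq (K := F) (V := V) hζ (Subgroup.zpowers w), T_add, hV, zero_add, add_zero]
    · intro p; rfl
  obtain ⟨P, hP⟩ := exists_P hζ g1 g2 hgr1 hgr2 (by rw [hm1, hm2])
  obtain ⟨h, hh, hh2⟩ := conj_quad (Q := Q.prod QW) hrF (hr.out.odd_of_ne_two hr2) (prod_nondeg hQ hQW) hg1 hg2 hgr1 hP
  have hfst : ∀ v : V, (h (v, 0)).1 = 0 := by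
    intro v
    obtain ⟨u, hu⟩ := surj_of_mult hζ g h0 v
    have h3 : ((v, 0) : V × W) = g1 (u, 0) - (u, 0) := by
      rw [hg1a]
      apply Prod.ext
      · exact hu.symm
      · simp
    rw [h3, map_sub, hh2, hg2a]
    simp
  set e : V →ₗ[F] W := (LinearMap.snd F V W).comp ((h : (V × W) →ₗ[F] (V × W)).comp (LinearMap.inl F V W)) with he
  have hea : ∀ v, h (v, 0) = (0, e v) := by
    intro v
    apply Prod.ext
    · exact hfst v
    · rfl
  have heinj : Function.Injective e := by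
    rw [← LinearMap.ker_eq_bot, LinearMap.ker_eq_bot']
    intro v hv
    have h3 := hea v
    rw [hv] at h3
    have h4 : h (v, 0) = h 0 := by rw [h3, map_zero]; rfl
    exact congrArg Prod.fst (h.injective h4)
  have heQ : ∀ v, QW (e v) = Q v := by
    intro v
    have h3 := hh (v, 0)
    rw [hea, QuadraticMap.prod_apply, QuadraticMap.prod_apply] at h3
    simpa using h3
  rw [← hgW]
  exact ga_isom ψ (LinearMap.linearEquivOfInjective e heinj (by rw [hV, hW])).toEquiv heQ

end Cfsg.Agent.Iso44
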