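import Cfsg.Agent.Iso44.Blk
import Mathlib.GroupTheory.OrderOfElement

/-!
The cyclic groups of exponents.
-/

set_option autoImplicit false

namespace Cfsg.Agent.Iso44

variable {r : ℕ} [hr : Fact r.Prime]

theorem neg_one_ne (hr2 : r ≠ 2) : (-1 : (ZMod r)ˣ) ≠ 1 := by
  intro h
  have h1 : (-1 : ZMod r) = 1 := by
    have := congrArg Units.val h
    exact this
  have h2 : ((2 : ℕ) : ZMod r) = 0 := by push_cast; linear_combination -h1
  rw [ZMod.natCast_eq_zero_iff] at h2
  exact hr2 ((Nat.prime_dvd_prime_iff_eq hr.out Nat.prime_two).1 h2)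

theorem orderOf_neg_one' (hr2 : r ≠ 2) : orderOf (-1 : (ZMod r)ˣ) = 2 :=
  orderOf_eq_prime (by simp) (neg_one_ne hr2)

theorem orderOf_neg_of_odd (hr2 : r ≠ 2) {u : (ZMod r)ˣ} (hu : Odd (orderOf u)) : orderOf (-u) = 2 * orderOf u := by
  have h1 : (-u) = (-1) * u := by rw [neg_one_mul]
  rw [h1, Commute.orderOf_mul_eq_mul_orderOf_of_coprime (Commute.all _ _), orderOf_neg_one' hr2]
  rw [orderOf_neg_one' hr2]
  exact (Nat.coprime_two_left).2 hu

theorem pow_half {u : (ZMod r)ˣ} {j : ℕ} (hj : 0 < j) (hu : orderOf u = 2 * j) : u ^ j = -1 := by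
  have h1 : (u ^ j) ^ 2 = 1 := by rw [← pow_mul, mul_comm, ← hu, pow_orderOf_eq_one]
  have h2 : u ^ j ≠ 1 := by
    intro h
    have := orderOf_dvd_of_pow_eq_one h
    rw [hu] at this
    have := Nat.le_of_dvd hj this
    omega
  have h3 : ((u ^ j : (ZMod r)ˣ) : ZMod r) ^ 2 = 1 := by
    rw [← Units.val_pow_eq_pow_val, h1, Units.val_one]
  rcases sq_eq_one_iff_of_ne_zero.1 h3 with h | h
  · exact absurd (Units.ext h) h2
  · apply Units.ext
    rw [h]; rfl
where
  sq_eq_one_iff_of_ne_zero {a : ZMod r} : a ^ 2 = 1 ↔ a = 1 ∨ a = -1 := sq_eq_one_iff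

theorem exists_w (hr2 : r ≠ 2) {q : ℕ} (hq : (q : ZMod r) ≠ 0) :
    ∃ w : (ZMod r)ˣ, ((w : ZMod r) = q ∨ (w : ZMod r) = -q) ∧
      orderOf w = if Odd (orderOf (q : ZMod r)) then 2 * orderOf (q : ZMod r) else orderOf (q : ZMod r) := by
  set u : (ZMod r)ˣ := Units.mk0 _ hq with hu
  have h1 : orderOf (q : ZMod r) = orderOf u := by
    have : (q : ZMod r) = (u : ZMod r) := rfl
    rw [this, orderOf_units]
  rw [h1]
  by_cases h : Odd (orderOf u)
  · rw [if_pos h]
    exact ⟨-u, Or.inr (by rw [Units.val_neg]; rfl), orderOf_neg_of_odd hr2 h⟩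
  · rw [if_neg h]
    exact ⟨u, Or.inl rfl, rfl⟩

theorem exists_w' (hr2 : r ≠ 2) {q : ℕ} (hq : (q : ZMod r) ≠ 0) :
    ∃ w : (ZMod r)ˣ, (w : ZMod r) = -q ∧
      orderOf w = if Odd (orderOf (q : ZMod r)) then 2 * orderOf (q : ZMod r) else
        if orderOf (q : ZMod r) % 4 = 2 then orderOf (q : ZMod r) / 2 else orderOf (q : ZMod r) := by
  set u : (ZMod r)ˣ := Units.mk0 _ hq with hu
  have h1 : orderOf (q : ZMod r) = orderOf u := by
    have : (q : ZMod r) = (u : ZMod r) := rfl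
    rw [this, orderOf_units]
  have hpos : 0 < orderOf u := orderOf_pos u
  rw [h1]
  refine ⟨-u, by rw [Units.val_neg]; rfl, ?_⟩
  by_cases h : Odd (orderOf u)
  · rw [if_pos h]
    exact orderOf_neg_of_odd hr2 h
  · rw [if_neg h]
    rw [Nat.not_odd_iff_even] at h
    obtain ⟨j, hj⟩ := h
    have hj' : orderOf u = 2 * j := by omega
    have hj0 : 0 < j := by omega
    have hhalf := pow_half hj0 hj'
    have hdiv : ∀ k, (-u) ^ k = 1 → j ∣ k := by
      intro k hk
      have h2 : u ^ (2 * k) = 1 := by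
        rw [mul_comm, pow_mul]
        have h3 : ((-u) ^ k) ^ 2 = 1 := by rw [hk, one_pow]
        rw [← pow_mul, mul_comm, pow_mul, neg_sq, ← pow_mul, mul_comm, pow_mul] at h3
        exact h3
      have h4 := orderOf_dvd_of_pow_eq_one h2
      rw [hj'] at h4
      exact Nat.dvd_of_mul_dvd_mul_left (by norm_num) h4
    split_ifs with h4
    · have hjodd : Odd j := Nat.odd_iff.2 (by omega)
      rw [show orderOf u / 2 = j by omega]
      apply Nat.dvd_antisymm
      · apply orderOf_dvd_of_pow_eq_one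
        rw [hjodd.neg_pow, hhalf, neg_neg]
      · exact hdiv _ (pow_orderOf_eq_one _)
    · have hjeven : Even j := Nat.even_iff.2 (by omega)
      apply Nat.dvd_antisymm
      · apply orderOf_dvd_of_pow_eq_one
        have : Even (orderOf u) := by rw [hj']; exact even_two_mul j
        rw [this.neg_pow, pow_orderOf_eq_one]
      · have h5 := hdiv _ (pow_orderOf_eq_one (-u))
        have h6 : Even (orderOf (-u)) := by
          obtain ⟨l, hl⟩ := h5
          rw [hl]; exact hjeven.mul_right l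
        apply orderOf_dvd_of_pow_eq_one
        have h7 := pow_orderOf_eq_one (-u)
        rwa [h6.neg_pow] at h7

end Cfsg.Agent.Iso44
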