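import Cfsg.Agent.Iso44.Cnt
import Cfsg.Agent.Iso44.Conj
import Cfsg.Agent.H43.SympEquiv
import Cfsg.Agent.ClassSp.Order

/-!
Realizing multiplicity functions by symplectic isometries.
-/

set_option autoImplicit false

universe u

namespace Cfsg.Agent.Iso44

open Polynomial Module Cfsg.Agent.ClGeo Cfsg.Agent.H43

variable {r : ℕ} [hr : Fact r.Prime] {E : Type*} [Field E] {F : Type u} [Field F] [Finite F] [Algebra F E]
variable {ζ : E} (hζ : IsPrimitiveRoot ζ r) [IsAlgClosed E]

theorem nd_of {V : Type*} [AddCommGroup V] [Module F V] {B : LinearMap.BilinForm F V} (h : B.Nondegenerate) (x : V) (hx : ∀ y, B x y = 0) : x = 0 :=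
  h.1 x hx

/-- the orthogonal sum of two forms -/
noncomputable def bsum {V W : Type*} [AddCommGroup V] [Module F V] [AddCommGroup W] [Module F W] (B : LinearMap.BilinForm F V)
    (C : LinearMap.BilinForm F W) : LinearMap.BilinForm F (V × W) :=
  B.compl₁₂ (LinearMap.fst F V W) (LinearMap.fst F V W) + C.compl₁₂ (LinearMap.snd F V W) (LinearMap.snd F V W)

omit [Finite F] in
theorem bsum_apply {V W : Type*} [AddCommGroup V] [Module F V] [AddCommGroup W] [Module F W] (B : LinearMap.BilinForm F V)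
    (C : LinearMap.BilinForm F W) (x y : V × W) : bsum B C x y = B x.1 y.1 + C x.2 y.2 := rfl

include hζ

/-- invariance of the multiplicities of isometries -/
theorem inv_isom {V : Type*} [AddCommGroup V] [Module F V] [FiniteDimensional F V] (B : LinearMap.BilinForm F V) (hB : B.Nondegenerate)
    {w : (ZMod r)ˣ} {q : ℕ} (hq : Nat.card F = q) (hqr : (q : ZMod r) ≠ 0) (hw : (w : ZMod r) = q ∨ (w : ZMod r) = -q)
    (g : V ≃ₗ[F] V) (hg : ∀ x y, B (g x) (g y) = B x y) (hgr : g ^ r = 1) :
    Inv (Subgroup.zpowers w) (mult ζ (g : End F V)) := by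
  have h1 : ∀ j : ZMod r, mult ζ (g : End F V) ((q : ZMod r) * j) = mult ζ (g : End F V) j :=
    mult_frob hζ hq hqr (g : End F V) (coe_pow_one hgr)
  have h2 : ∀ j : ZMod r, mult ζ (g : End F V) (-j) = mult ζ (g : End F V) j := by
    have hgh : (g : End F V) * (g.symm : End F V) = 1 := by
      ext x; exact g.apply_symm_apply x
    exact mult_neg hζ (g : End F V) (coe_pow_one hgr) hgh (charpoly_inv B hB hg hgh)
  apply inv_zpowers
  intro j
  rcases hw with hw | hw
  · rw [hw, h1]
  · rw [hw, neg_mul, h2, h1]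

omit hζ [IsAlgClosed E] in
theorem mem_spG {m : ℕ} {g : (Fin m ⊕ Fin m → F) ≃ₗ[F] (Fin m ⊕ Fin m → F)} :
    g ∈ spG F m ↔ ∀ x y, sB F m (g x) (g y) = sB F m x y := Iff.rfl

omit [Finite F] [IsAlgClosed E] [Algebra F E] [Field E] hζ in
theorem dvd_pow_sub_one {q : ℕ} (hq0 : 0 < q) {k : ℕ} (h : (q : ZMod r) ^ k = 1) : r ∣ q ^ k - 1 := by
  rw [← ZMod.natCast_eq_zero_iff, Nat.cast_sub (Nat.one_le_pow _ _ hq0)]
  push_cast
  rw [h, sub_self]

omit [Finite F] [IsAlgClosed E] [Algebra F E] [Field E] hζ [Field F] in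
theorem pow_even_eq {w : (ZMod r)ˣ} {q : ℕ} (hw : (w : ZMod r) = q ∨ (w : ZMod r) = -q) {k : ℕ} (hk : orderOf w = 2 * k) :
    (q : ZMod r) ^ (2 * k) = 1 := by
  have h1 : (w : ZMod r) ^ (2 * k) = 1 := by
    rw [← Units.val_pow_eq_pow_val, ← hk, pow_orderOf_eq_one, Units.val_one]
  rcases hw with hw | hw
  · rw [← hw, h1]
  · rw [← h1, hw, Even.neg_pow (even_two_mul k)]

omit [IsAlgClosed E] [Algebra F E] [Field E] hζ in
/-- an element of order `r` in the symplectic group of dimension `2k` -/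
theorem sp_elt {q : ℕ} (hq : Nat.card F = q) {k : ℕ} (hk : 0 < k) (h : (q : ZMod r) ^ (2 * k) = 1) :
    ∃ g ∈ spG F k, g ^ r = 1 ∧ g ≠ 1 := by
  have : Fintype F := Fintype.ofFinite F
  have hq0 : 0 < q := by rw [← hq]; exact Nat.card_pos
  have hd : r ∣ Nat.card (Matrix.symplecticGroup (Fin k) F) := by
    rw [ClassSp.card_fin, ← Nat.card_eq_fintype_card, hq]
    refine Dvd.dvd.mul_left ?_ _
    obtain ⟨k', rfl⟩ : ∃ k', k = k' + 1 := ⟨k - 1, by omega⟩
    rw [Finset.prod_range_succ]
    exact Dvd.dvd.mul_left (dvd_pow_sub_one hq0 h) _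
  obtain ⟨e⟩ := exists_spEquiv F k
  rw [Nat.card_congr e.toEquiv] at hd
  have : Finite (spG F k) := Finite.of_equiv _ e.toEquiv
  obtain ⟨g, hg⟩ := exists_prime_orderOf_dvd_card' r hd
  refine ⟨g, g.2, ?_, ?_⟩
  · have h1 : g ^ r = 1 := by rw [← hg]; exact pow_orderOf_eq_one g
    exact congrArg Subtype.val h1
  · intro h1
    have h2 : g = 1 := Subtype.ext h1
    rw [h2, orderOf_one] at hg
    exact hr.out.one_lt.ne hg

/-- realization in symplectic groups -/
theorem sp_real {q : ℕ} (hq : Nat.card F = q) (hqr : (q : ZMod r) ≠ 0) {w : (ZMod r)ˣ} (hw : (w : ZMod r) = q ∨ (w : ZMod r) = -q)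
    {k : ℕ} (hk : orderOf w = 2 * k) : ∀ (S m : ℕ) (x : ℕ) (a : (ZMod r)ˣ ⧸ Subgroup.zpowers w → ℕ), ∑ c, a c = S →
      x + 2 * k * S = 2 * m → ∃ g ∈ spG F m, g ^ r = 1 ∧ (mult ζ (g : End F (Fin m ⊕ Fin m → F)) : ZMod r → ℕ) = T (Subgroup.zpowers w) x a := by
  have hfr : ∀ m : ℕ, finrank F (Fin m ⊕ Fin m → F) = 2 * m := by
    intro m
    rw [finrank_fintype_fun_eq_card, Fintype.card_sum, Fintype.card_fin]; ring
  have hb : Nat.card (Subgroup.zpowers w) = 2 * k := by rw [Nat.card_zpowers, hk]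
  have hk0 : 0 < k := by
    have := orderOf_pos w
    omega
  intro S
  induction S with
  | zero =>
    intro m x a ha hx
    refine ⟨1, one_mem _, one_pow _, ?_⟩
    have ha0 : a = 0 := by
      funext c
      exact Finset.sum_eq_zero_iff.1 ha c (Finset.mem_univ _)
    have h1 := inv_isom hζ (sB F m) (sB_nondegenerate m) hq hqr hw 1 (fun x y => rfl) (one_pow _)
    obtain ⟨x', a', h2⟩ := exists_T _ h1
    have h3 := sum_mult hζ ((1 : (Fin m ⊕ Fin m → F) ≃ₗ[F] (Fin m ⊕ Fin m → F)) : End F (Fin m ⊕ Fin m → F)) (coe_pow_one (one_pow _))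
    rw [h2, sum_T, hfr, hb] at h3
    have h4 : x' = 2 * m := by
      have h5 := mult_one_zero (r := r) (V := Fin m ⊕ Fin m → F) (F := F) hζ
      have h6 : mult ζ ((1 : (Fin m ⊕ Fin m → F) ≃ₗ[F] (Fin m ⊕ Fin m → F)) : End F (Fin m ⊕ Fin m → F)) (0 : ZMod r) = x' := by
        rw [h2, T_zero]
      rw [← h6, ← hfr]
      exact h5
    have h7 : 2 * k * ∑ c, a' c = 0 := by omega
    have h8 : ∑ c, a' c = 0 := by
      rcases Nat.mul_eq_zero.1 h7 with h | h
      · omega
      · exact h
    have h9 : a' = 0 := by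
      funext c
      exact Finset.sum_eq_zero_iff.1 h8 c (Finset.mem_univ _)
    rw [h2, h9, ha0]
    congr 1
    omega
  | succ S ih =>
    intro m x a ha hx
    obtain ⟨c, -, hc⟩ : ∃ c ∈ Finset.univ, a c ≠ 0 := by
      apply Finset.exists_ne_zero_of_sum_ne_zero
      rw [ha]; omega
    set a' : (ZMod r)ˣ ⧸ Subgroup.zpowers w → ℕ := fun d => a d - (Pi.single c 1 : _ → ℕ) d with ha'
    have haa : a = Pi.single c 1 + a' := by
      funext d
      rw [Pi.add_apply, ha']
      by_cases hd : d = c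
      · subst hd; simp only [Pi.single_eq_same]; omega
      · simp only [Pi.single_eq_of_ne hd]; omega
    have hS : ∑ d, a' d = S := by
      have h1 : ∑ d, a d = ∑ d, (Pi.single c 1 : _ → ℕ) d + ∑ d, a' d := by
        rw [← Finset.sum_add_distrib]
        exact Finset.sum_congr rfl fun d _ => congrFun haa d
      rw [ha, Finset.sum_pi_single' c 1 Finset.univ, if_pos (Finset.mem_univ _)] at h1
      omega
    have hmk : k ≤ m := by
      have : 2 * k * (S + 1) = 2 * k * S + 2 * k := by ring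
      omega
    obtain ⟨g', hg', hgr', hm'⟩ := ih (m - k) x a' hS (by
      have : 2 * k * (S + 1) = 2 * k * S + 2 * k := by ring
      omega)
    obtain ⟨g0, hg0, hgr0, hg01⟩ := sp_elt (F := F) hq hk0 (pow_even_eq hw hk)
    have hinv0 := inv_isom hζ (sB F k) (sB_nondegenerate k) hq hqr hw g0 hg0 hgr0
    obtain ⟨l, hl⟩ := block hζ (Subgroup.zpowers w) (g0 : End F (Fin k ⊕ Fin k → F)) (coe_pow_one hgr0) (by
      intro h
      apply hg01
      ext x
      exact congrFun (congrArg (fun f : End F (Fin k ⊕ Fin k → F) => f x) h) _) (by rw [hfr, hb]) hinv0 c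
    have hg1 : g0 ^ l ∈ spG F k := pow_mem hg0 l
    -- glue
    obtain ⟨e, he⟩ := exists_symp_equiv' (bsum (sB F k) (sB F (m - k))) (by
      intro x
      rw [bsum_apply, sB_isAlt, sB_isAlt, add_zero]) (by
      intro v hv
      apply Prod.ext
      · apply nd_of (sB_nondegenerate k)
        intro y
        have := hv (y, 0)
        rw [bsum_apply] at this
        simpa using this
      · apply nd_of (sB_nondegenerate (m - k))
        intro y
        have := hv (0, y)
        rw [bsum_apply] at this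
        simpa using this) (m := m) (by
      rw [finrank_prod, hfr, hfr]; omega)
    have he' : ∀ x y, sB F m x y = bsum (sB F k) (sB F (m - k)) (e.symm x) (e.symm y) := by
      intro x y
      rw [he, e.apply_symm_apply, e.apply_symm_apply, sB_apply]
    refine ⟨(e.symm.trans ((g0 ^ l).prodCongr g')).trans e, ?_, ?_, ?_⟩
    · intro x y
      rw [he', he' x y]
      simp only [LinearEquiv.trans_apply, e.symm_apply_apply]
      rw [bsum_apply, bsum_apply]
      simp only [LinearEquiv.prodCongr_apply]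
      rw [hg1, hg']
    · have h1 : ∀ j : ℕ, ((e.symm.trans ((g0 ^ l).prodCongr g')).trans e) ^ j = (e.symm.trans (((g0 ^ l) ^ j).prodCongr (g' ^ j))).trans e := by
        intro j
        induction j with
        | zero => ext x; simp [LinearEquiv.prodCongr_apply]
        | succ j ihj =>
          rw [pow_succ, ihj, pow_succ, pow_succ]
          ext x
          simp [LinearEquiv.prodCongr_apply, LinearEquiv.mul_apply]
      rw [h1, ← pow_mul, mul_comm, pow_mul, hgr0, one_pow, hgr']
      ext x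
      simp [LinearEquiv.prodCongr_apply]
    · have h1 : (((e.symm.trans ((g0 ^ l).prodCongr g')).trans e : (Fin m ⊕ Fin m → F) ≃ₗ[F] (Fin m ⊕ Fin m → F)) : End F (Fin m ⊕ Fin m → F)) =
          e.conj (LinearMap.prodMap ((g0 : End F (Fin k ⊕ Fin k → F)) ^ l) (g' : End F (Fin (m - k) ⊕ Fin (m - k) → F))) := by
        ext x
        rw [← coe_pow_equiv]
        rfl
      rw [h1, mult_conj, mult_prodMap, hl, hm', T_add, zero_add, ← haa]

end Cfsg.Agent.Iso44
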