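import Mathlib.GroupTheory.Index
import Mathlib.Algebra.Group.Conj
import Mathlib.GroupTheory.QuotientGroup.Basic
import Mathlib.Tactic

/-!
Splitting of a conjugacy class of `G` in the kernel of a homomorphism onto an abelian group.
-/

set_option autoImplicit false

namespace Cfsg.Agent.Iso44

theorem card_split {S G A : Type*} [Group S] [Group G] [CommGroup A] (ι : S →* G) (hι : Function.Injective ι) (δ : G →* A)
    (hδ : Function.Surjective δ) (hrange : ι.range = δ.ker) (u0 : S) :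
    Nat.card {C : ConjClasses S // ∃ u, ConjClasses.mk u = C ∧ IsConj (ι u0) (ι u)} =
      ((Subgroup.centralizer ({ι u0} : Set G)).map δ).index := by
  set D := (Subgroup.centralizer ({ι u0} : Set G)).map δ with hD
  choose g hg using hδ
  have hs : ∀ a : A, ∃ s : S, ι s = g a * ι u0 * (g a)⁻¹ := by
    intro a
    have h1 : g a * ι u0 * (g a)⁻¹ ∈ ι.range := by
      rw [hrange, MonoidHom.mem_ker, map_mul, map_mul, map_inv, mul_comm (δ (g a)), mul_assoc, mul_inv_cancel, mul_one]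
      have : ι u0 ∈ δ.ker := by rw [← hrange]; exact ⟨u0, rfl⟩
      exact this
    exact h1
  choose s hs using hs
  have hker : ∀ t : S, δ (ι t) = 1 := by
    intro t
    have : ι t ∈ δ.ker := by rw [← hrange]; exact ⟨t, rfl⟩
    exact this
  have key : ∀ a b : A, IsConj (s a) (s b) ↔ a⁻¹ * b ∈ D := by
    intro a b
    constructor
    · intro h
      obtain ⟨t, ht⟩ := isConj_iff.1 h
      have h1 : ι t * (g a * ι u0 * (g a)⁻¹) * (ι t)⁻¹ = g b * ι u0 * (g b)⁻¹ := by
        rw [← hs, ← hs, ← ht, map_mul, map_mul, map_inv]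
      have h2 : (g a)⁻¹ * (ι t)⁻¹ * g b ∈ Subgroup.centralizer ({ι u0} : Set G) := by
        rw [Subgroup.mem_centralizer_singleton_iff]
        have h3 : ι u0 = (g a)⁻¹ * (ι t)⁻¹ * (g b * ι u0 * (g b)⁻¹) * ι t * g a := by
          rw [← h1]; group
        calc (g a)⁻¹ * (ι t)⁻¹ * g b * ι u0 = (g a)⁻¹ * (ι t)⁻¹ * (g b * ι u0 * (g b)⁻¹) * ι t * g a * ((g a)⁻¹ * (ι t)⁻¹ * g b) := by group
          _ = ι u0 * ((g a)⁻¹ * (ι t)⁻¹ * g b) := by rw [← h3]
      refine ⟨_, h2, ?_⟩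
      rw [map_mul, map_mul, map_inv, map_inv, hg, hg, hker, inv_one, mul_one]
    · rintro ⟨c, hc, hc2⟩
      have hc' := Subgroup.mem_centralizer_singleton_iff.1 hc
      have h1 : g b * c⁻¹ * (g a)⁻¹ ∈ ι.range := by
        rw [hrange, MonoidHom.mem_ker, map_mul, map_mul, map_inv, map_inv, hg, hg, hc2]
        rw [mul_inv_rev, inv_inv, ← mul_assoc, mul_inv_cancel, one_mul, mul_inv_cancel]
      obtain ⟨t, ht⟩ := h1
      rw [isConj_iff]
      refine ⟨t, hι ?_⟩
      rw [map_mul, map_mul, map_inv, hs, hs, ht]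
      have h2 : c⁻¹ * ι u0 * c = ι u0 := by
        rw [mul_assoc, ← hc', ← mul_assoc, inv_mul_cancel, one_mul]
      calc g b * c⁻¹ * (g a)⁻¹ * (g a * ι u0 * (g a)⁻¹) * (g b * c⁻¹ * (g a)⁻¹)⁻¹ = g b * (c⁻¹ * ι u0 * c) * (g b)⁻¹ := by group
        _ = g b * ι u0 * (g b)⁻¹ := by rw [h2]
  have key2 : ∀ u : S, IsConj (ι u0) (ι u) → ∃ a : A, IsConj (s a) u := by
    intro u hu
    obtain ⟨x, hx⟩ := isConj_iff.1 hu
    refine ⟨δ x, ?_⟩
    have h1 : x * (g (δ x))⁻¹ ∈ ι.range := by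
      rw [hrange, MonoidHom.mem_ker, map_mul, map_inv, hg, mul_inv_cancel]
    obtain ⟨t, ht⟩ := h1
    rw [isConj_iff]
    refine ⟨t, hι ?_⟩
    rw [map_mul, map_mul, map_inv, hs, ht, ← hx]
    group
  rw [Subgroup.index]
  symm
  apply Nat.card_congr
  refine Equiv.ofBijective (fun q => ?_) ?_
  · exact Quotient.liftOn' q (fun a => (⟨ConjClasses.mk (s a), s a, rfl, isConj_iff.2 ⟨g a, (hs a).symm⟩⟩ :
      {C : ConjClasses S // ∃ u, ConjClasses.mk u = C ∧ IsConj (ι u0) (ι u)})) (by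
      intro a b hab
      apply Subtype.ext
      exact ConjClasses.mk_eq_mk_iff_isConj.2 ((key a b).2 (QuotientGroup.leftRel_apply.1 hab)))
  · constructor
    · intro p q
      refine Quotient.inductionOn₂' p q fun a b h => ?_
      have h1 := congrArg Subtype.val h
      have h2 := (key a b).1 (ConjClasses.mk_eq_mk_iff_isConj.1 h1)
      exact QuotientGroup.eq.2 h2
    · rintro ⟨_, u, rfl, hu⟩
      obtain ⟨a, ha⟩ := key2 u hu
      refine ⟨Quotient.mk'' a, ?_⟩
      apply Subtype.ext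
      exact ConjClasses.mk_eq_mk_iff_isConj.2 ha

end Cfsg.Agent.Iso44
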