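import Cfsg.Agent.Iso44.Norm
import Mathlib.LinearAlgebra.Matrix.NonsingularInverse
import Mathlib.LinearAlgebra.Matrix.ToLin
import Mathlib.Algebra.Algebra.Subalgebra.Lattice

/-!
Two nondegenerate forms invariant under a fixed point free isometry of odd order are equivalent under its centralizer.
-/

set_option autoImplicit false

namespace Cfsg.Agent.Iso44

open Matrix

variable {n : Type*} [Fintype n] [DecidableEq n] {F : Type*} [Field F]

/-- the adjoint with respect to the form `B` -/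
noncomputable def st (B X : Matrix n n F) : Matrix n n F := B⁻¹ * Xᵀ * B

theorem st_mul {B : Matrix n n F} (hB : IsUnit B.det) (X Y : Matrix n n F) : st B (X * Y) = st B Y * st B X := by
  unfold st
  rw [Matrix.transpose_mul]
  calc B⁻¹ * (Yᵀ * Xᵀ) * B = B⁻¹ * Yᵀ * 1 * Xᵀ * B := by rw [Matrix.mul_one]; simp only [Matrix.mul_assoc]
    _ = _ := by rw [← Matrix.mul_nonsing_inv B hB]; simp only [Matrix.mul_assoc]

theorem st_add (B X Y : Matrix n n F) : st B (X + Y) = st B X + st B Y := by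
  unfold st
  rw [Matrix.transpose_add, Matrix.mul_add, Matrix.add_mul]

theorem st_algebraMap {B : Matrix n n F} (hB : IsUnit B.det) (c : F) : st B (algebraMap F _ c) = algebraMap F _ c := by
  unfold st
  rw [Algebra.algebraMap_eq_smul_one, Matrix.transpose_smul, Matrix.transpose_one, Matrix.mul_smul, Matrix.smul_mul,
    Matrix.mul_one, Matrix.nonsing_inv_mul B hB]

theorem st_st {B : Matrix n n F} (hB : IsUnit B.det) {ε : F} (hε : ε * ε = 1) (hBt : Bᵀ = ε • B) (X : Matrix n n F) :
    st B (st B X) = X := by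
  unfold st
  have hB' : (B⁻¹)ᵀ = ε • B⁻¹ := by
    rw [Matrix.transpose_nonsing_inv, hBt]
    apply Matrix.inv_eq_left_inv
    rw [Matrix.smul_mul, Matrix.mul_smul, smul_smul, hε, one_smul, Matrix.nonsing_inv_mul B hB]
  rw [Matrix.transpose_mul, Matrix.transpose_mul, Matrix.transpose_transpose, hBt, hB']
  simp only [Matrix.smul_mul, Matrix.mul_smul, smul_smul, hε, one_smul]
  calc B⁻¹ * (B * (X * B⁻¹)) * B = (B⁻¹ * B) * X * (B⁻¹ * B) := by simp only [Matrix.mul_assoc]
    _ = X := by rw [Matrix.nonsing_inv_mul B hB, Matrix.one_mul, Matrix.mul_one]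

/-- **uniqueness of invariant forms** -/
theorem uniq_mat [Finite F] {B B' g : Matrix n n F} (hB : IsUnit B.det) (hB' : IsUnit B'.det) {ε : F} (hε : ε * ε = 1)
    (hBt : Bᵀ = ε • B) (hBt' : B'ᵀ = ε • B') (hg : gᵀ * B * g = B) (hg' : gᵀ * B' * g = B')
    (h1 : IsUnit (g - g⁻¹)) : ∃ T : Matrix n n F, IsUnit T.det ∧ T * g = g * T ∧ Tᵀ * B * T = B' := by
  classical
  have hgdet : IsUnit g.det := by
    have h2 := congrArg Matrix.det hg
    rw [Matrix.det_mul, Matrix.det_mul, Matrix.det_transpose] at h2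
    rw [isUnit_iff_ne_zero] at hB ⊢
    intro h0
    rw [h0] at h2
    simp at h2
    exact hB h2.symm
  have hgg : g * g⁻¹ = 1 := Matrix.mul_nonsing_inv g hgdet
  have hgg' : g⁻¹ * g = 1 := Matrix.nonsing_inv_mul g hgdet
  have hBB : B * B⁻¹ = 1 := Matrix.mul_nonsing_inv B hB
  have hBB' : B⁻¹ * B = 1 := Matrix.nonsing_inv_mul B hB
  have e1 : st B g = g⁻¹ := by
    have : B⁻¹ * (gᵀ * B * g) = 1 := by rw [hg, hBB']
    unfold st
    calc B⁻¹ * gᵀ * B = B⁻¹ * gᵀ * B * (g * g⁻¹) := by rw [hgg, Matrix.mul_one]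
      _ = B⁻¹ * (gᵀ * B * g) * g⁻¹ := by simp only [Matrix.mul_assoc]
      _ = g⁻¹ := by rw [this, Matrix.one_mul]
  have e1' : st B' g = g⁻¹ := by
    have : B'⁻¹ * (gᵀ * B' * g) = 1 := by rw [hg', Matrix.nonsing_inv_mul B' hB']
    unfold st
    calc B'⁻¹ * gᵀ * B' = B'⁻¹ * gᵀ * B' * (g * g⁻¹) := by rw [hgg, Matrix.mul_one]
      _ = B'⁻¹ * (gᵀ * B' * g) * g⁻¹ := by simp only [Matrix.mul_assoc]
      _ = g⁻¹ := by rw [this, Matrix.one_mul]
  have e2 : st B g⁻¹ = g := by rw [← e1, st_st hB hε hBt]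
  set S : Matrix n n F := B⁻¹ * B' with hSdef
  have hBS : B * S = B' := by rw [hSdef, ← Matrix.mul_assoc, hBB, Matrix.one_mul]
  have e3 : st B S = S := by
    unfold st
    have hBi : (B⁻¹)ᵀ = ε • B⁻¹ := by
      rw [Matrix.transpose_nonsing_inv, hBt]
      apply Matrix.inv_eq_left_inv
      rw [Matrix.smul_mul, Matrix.mul_smul, smul_smul, hε, one_smul, hBB']
    rw [hSdef, Matrix.transpose_mul, hBt', hBi]
    simp only [Matrix.smul_mul, Matrix.mul_smul, smul_smul, hε, one_smul]
    rw [Matrix.mul_assoc, Matrix.mul_assoc, hBB', Matrix.mul_one]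
  have hgS : g * S = S * g := by
    -- gᵀ = B g⁻¹ B⁻¹ = B' g⁻¹ B'⁻¹
    have h2 : gᵀ * B = B * g⁻¹ := by
      have : gᵀ * B * g * g⁻¹ = B * g⁻¹ := by rw [hg]
      rwa [Matrix.mul_assoc (gᵀ * B), hgg, Matrix.mul_one] at this
    have h3 : gᵀ * B' = B' * g⁻¹ := by
      have : gᵀ * B' * g * g⁻¹ = B' * g⁻¹ := by rw [hg']
      rwa [Matrix.mul_assoc (gᵀ * B'), hgg, Matrix.mul_one] at this
    have h4 : B * (g⁻¹ * S) = B * (S * g⁻¹) := by
      rw [← Matrix.mul_assoc, ← h2, Matrix.mul_assoc, hBS, h3, ← Matrix.mul_assoc, hBS]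
    have h5 : g⁻¹ * S = S * g⁻¹ := by
      have := congrArg (fun X => B⁻¹ * X) h4
      simpa only [← Matrix.mul_assoc, hBB', Matrix.one_mul] using this
    calc g * S = g * (S * g⁻¹) * g := by rw [Matrix.mul_assoc, Matrix.mul_assoc, hgg', Matrix.mul_one]
      _ = g * (g⁻¹ * S) * g := by rw [h5]
      _ = S * g := by rw [← Matrix.mul_assoc, hgg, Matrix.one_mul]
  have hgiS : g⁻¹ * S = S * g⁻¹ := by
    calc g⁻¹ * S = g⁻¹ * (S * g) * g⁻¹ := by rw [Matrix.mul_assoc, Matrix.mul_assoc, hgg, Matrix.mul_one]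
      _ = g⁻¹ * (g * S) * g⁻¹ := by rw [hgS]
      _ = S * g⁻¹ := by rw [← Matrix.mul_assoc, hgg', Matrix.one_mul]
  let X0 : Set (Matrix n n F) := {g, g⁻¹, S}
  have hcomm : ∀ a ∈ X0, ∀ b ∈ X0, a * b = b * a := by
    rintro a (rfl | rfl | rfl) b (rfl | rfl | rfl)
    · rfl
    · rw [hgg, hgg']
    · exact hgS
    · rw [hgg, hgg']
    · rfl
    · exact hgiS
    · exact hgS.symm
    · exact hgiS.symm
    · rfl
  let R := Algebra.adjoin F X0
  letI : CommRing R := Algebra.adjoinCommRingOfComm F hcomm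
  have hcommR : ∀ x y : R, (x : Matrix n n F) * y = y * x := fun x y => congrArg Subtype.val (mul_comm x y)
  have hst : ∀ x ∈ R, st B x ∈ R := by
    intro x hx
    induction hx using Algebra.adjoin_induction with
    | mem x hx =>
      rcases hx with rfl | rfl | rfl
      · rw [e1]; exact Algebra.subset_adjoin (Or.inr (Or.inl rfl))
      · rw [e2]; exact Algebra.subset_adjoin (Or.inl rfl)
      · rw [e3]; exact Algebra.subset_adjoin (Or.inr (Or.inr rfl))
    | algebraMap r => rw [st_algebraMap hB]; exact R.algebraMap_mem r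
    | add x y _ _ hx hy => rw [st_add]; exact R.add_mem hx hy
    | mul x y _ _ hx hy => rw [st_mul hB]; exact R.mul_mem hy hx
  let σ : R →+* R :=
    { toFun := fun x => ⟨st B x, hst x x.2⟩
      map_one' := by
        apply Subtype.ext
        have := st_algebraMap (n := n) hB (1 : F)
        rwa [map_one] at this
      map_mul' := fun x y => by
        apply Subtype.ext
        change st B ((x : Matrix n n F) * y) = st B x * st B y
        rw [st_mul hB]
        exact hcommR ⟨_, hst y y.2⟩ ⟨_, hst x x.2⟩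
      map_zero' := by
        apply Subtype.ext
        have := st_algebraMap (n := n) hB (0 : F)
        rwa [map_zero] at this
      map_add' := fun x y => Subtype.ext (st_add B _ _) }
  have hfinR : Finite R := inferInstance
  have hσ : ∀ x, σ (σ x) = x := fun x => Subtype.ext (st_st hB hε hBt x)
  have hgR : g ∈ R := Algebra.subset_adjoin (Or.inl rfl)
  have hgiR : g⁻¹ ∈ R := Algebra.subset_adjoin (Or.inr (Or.inl rfl))
  have hSR : S ∈ R := Algebra.subset_adjoin (Or.inr (Or.inr rfl))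
  -- units of R
  have hunit : ∀ x : R, IsUnit (x : Matrix n n F) → IsUnit x := by
    intro x hx
    have hinj : Function.Injective (fun y : R => x * y) := by
      intro y z hyz
      apply Subtype.ext
      have h2 : (x : Matrix n n F) * y = x * z := congrArg Subtype.val hyz
      exact hx.mul_left_cancel h2
    obtain ⟨y, hy⟩ := (Finite.injective_iff_surjective.1 hinj) 1
    exact IsUnit.of_mul_eq_one y hy
  obtain ⟨t, ht⟩ := norm_surj σ hσ ⟨g, hgR⟩ (hunit _ (by
      change IsUnit (g - st B g)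
      rw [e1]
      exact h1)) ⟨S, hSR⟩ (hunit _ (by
      rw [Matrix.isUnit_iff_isUnit_det]
      change IsUnit S.det
      rw [hSdef, Matrix.det_mul, Matrix.det_nonsing_inv]
      exact (IsUnit.ringInverse hB).mul hB')) (Subtype.ext e3)
  refine ⟨(t : R), ?_, hcommR t ⟨g, hgR⟩, ?_⟩
  · rw [← Matrix.isUnit_iff_isUnit_det]
    exact (t.isUnit.map R.val)
  · have h2 : ((t : R) : Matrix n n F) * st B (t : R) = S := congrArg Subtype.val ht
    have h3 : st B (t : R) * ((t : R) : Matrix n n F) = S := by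
      rw [← h2]
      exact hcommR ⟨_, hst _ (t : R).2⟩ t
    have h4 := congrArg (fun X => B * X) h3
    simp only [hBS] at h4
    rw [← h4]
    unfold st
    simp only [← Matrix.mul_assoc, hBB, Matrix.one_mul]

end Cfsg.Agent.Iso44
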