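import Cfsg.Agent.Iso44.Uniq
import Mathlib.LinearAlgebra.Matrix.BilinearForm
import Mathlib.LinearAlgebra.FreeModule.Finite.Basic
import Mathlib.LinearAlgebra.Projection

/-!
Uniqueness of invariant forms, abstract version.
-/

set_option autoImplicit false

namespace Cfsg.Agent.Iso44

open Matrix Module

variable {F V : Type*} [Field F] [Finite F] [AddCommGroup V] [Module F V] [FiniteDimensional F V]

theorem uniq_lin (B B' : LinearMap.BilinForm F V) (hB : ∀ x, (∀ y, B x y = 0) → x = 0) (hB' : ∀ x, (∀ y, B' x y = 0) → x = 0)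
    {ε : F} (hε : ε * ε = 1) (hs : ∀ x y, B y x = ε * B x y) (hs' : ∀ x y, B' y x = ε * B' x y)
    (g : V ≃ₗ[F] V) (hg : ∀ x y, B (g x) (g y) = B x y) (hg' : ∀ x y, B' (g x) (g y) = B' x y)
    (h1 : ∀ x, g (g x) = x → x = 0) :
    ∃ T : V ≃ₗ[F] V, (∀ x, T (g x) = g (T x)) ∧ ∀ x y, B' x y = B (T x) (T y) := by
  classical
  let b := Module.finBasis F V
  set M := LinearMap.BilinForm.toMatrix b B with hM
  set M' := LinearMap.BilinForm.toMatrix b B' with hM'
  set G := LinearMap.toMatrix b b (g : V →ₗ[F] V) with hG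
  have hnd : ∀ C : LinearMap.BilinForm F V, (∀ x, (∀ y, C x y = 0) → x = 0) → (∀ x y, C y x = ε * C x y) →
      IsUnit (LinearMap.BilinForm.toMatrix b C).det := by
    intro C hC hCs
    rw [isUnit_iff_ne_zero]
    rw [← LinearMap.BilinForm.nondegenerate_iff_det_ne_zero b]
    refine ⟨hC, fun y hy => hC y fun x => ?_⟩
    rw [hCs x y, hy x, mul_zero]
  have hcomp : ∀ C : LinearMap.BilinForm F V, (∀ x y, C (g x) (g y) = C x y) →
      Gᵀ * LinearMap.BilinForm.toMatrix b C * G = LinearMap.BilinForm.toMatrix b C := by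
    intro C hC
    rw [hG, ← LinearMap.BilinForm.toMatrix_comp]
    congr 1
    ext x y
    exact hC x y
  have htr : ∀ C : LinearMap.BilinForm F V, (∀ x y, C y x = ε * C x y) →
      (LinearMap.BilinForm.toMatrix b C)ᵀ = ε • LinearMap.BilinForm.toMatrix b C := by
    intro C hC
    ext i j
    rw [Matrix.transpose_apply, Matrix.smul_apply, LinearMap.BilinForm.toMatrix_apply, LinearMap.BilinForm.toMatrix_apply, hC]
    rfl
  have hGi : G⁻¹ = LinearMap.toMatrix b b (g.symm : V →ₗ[F] V) := by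
    apply Matrix.inv_eq_right_inv
    rw [hG, ← LinearMap.toMatrix_mul]
    have : (g : V →ₗ[F] V) * (g.symm : V →ₗ[F] V) = 1 := by ext x; exact g.apply_symm_apply x
    rw [this, LinearMap.toMatrix_one]
  have hu : IsUnit (G - G⁻¹) := by
    rw [hGi, hG, ← map_sub]
    have hinj : Function.Injective ((g : V →ₗ[F] V) - (g.symm : V →ₗ[F] V)) := by
      rw [injective_iff_map_eq_zero]
      intro x hx
      apply h1
      rw [LinearMap.sub_apply, sub_eq_zero] at hx
      have : g (g x) = g (g.symm x) := congrArg g hx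
      rwa [g.apply_symm_apply] at this
    have hbij : IsUnit ((g : V →ₗ[F] V) - (g.symm : V →ₗ[F] V)) := by
      rw [Module.End.isUnit_iff]
      exact ⟨hinj, LinearMap.injective_iff_surjective.1 hinj⟩
    exact hbij.map (LinearMap.toMatrixAlgEquiv b)
  obtain ⟨T, hT1, hT2, hT3⟩ := uniq_mat (hnd B hB hs) (hnd B' hB' hs') hε (htr B hs) (htr B' hs') (hcomp B hg) (hcomp B' hg') hu
  have hTu : IsUnit (Matrix.toLin b b T).det := by
    rw [LinearMap.det_toLin]; exact hT1
  let T' : V ≃ₗ[F] V := LinearEquiv.ofIsUnitDet (f := Matrix.toLin b b T) (v := b) (v' := b) (by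
    rw [LinearMap.toMatrix_toLin]; exact hT1)
  have hT' : ∀ x, T' x = Matrix.toLin b b T x := fun x => rfl
  refine ⟨T', ?_, ?_⟩
  · intro x
    rw [hT', hT']
    have e1 : (g : V →ₗ[F] V) = Matrix.toLin b b G := by rw [hG, Matrix.toLin_toMatrix]
    have e2 : g x = Matrix.toLin b b G x := by rw [← e1]; rfl
    have e3 : g (Matrix.toLin b b T x) = Matrix.toLin b b G (Matrix.toLin b b T x) := by rw [← e1]; rfl
    rw [e2, e3, ← LinearMap.comp_apply, ← LinearMap.comp_apply, ← Matrix.toLin_mul, ← Matrix.toLin_mul, hT2]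
  · have e1 : LinearMap.BilinForm.toMatrix b (B.comp (Matrix.toLin b b T) (Matrix.toLin b b T)) = LinearMap.BilinForm.toMatrix b B' := by
      rw [LinearMap.BilinForm.toMatrix_comp b b, LinearMap.toMatrix_toLin]
      exact hT3
    have e2 := (LinearMap.BilinForm.toMatrix b).injective e1
    intro x y
    rw [← e2]
    rfl

end Cfsg.Agent.Iso44
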